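import Cfsg.Agent.Lib.H64.TCMCD.Chk
set_option autoImplicit false
set_option maxRecDepth 100000
set_option linter.all false
namespace H64.TCMCD
open H35.TC
section
variable {G : Type} [Group G] {g : Lt → G} {H : Subgroup G}
/-- hypotheses -/
abbrev Hy (g : Lt → G) (H : Subgroup G) : Prop := (∀ x, g (inv x) = (g x)⁻¹) ∧ (∀ r ∈ rels, (r.map g).prod = 1) ∧ ∀ r ∈ subs, (r.map g).prod ∈ H
theorem hM0 : 0 < M := by decide
theorem hat {r W : List Lt} {x : Lt} (hr : (r.map g).prod = 1) (k : ℕ) (h : r.drop k ++ r.take k = W ++ [x]) (z : G ⧸ H) : fa g x (act (fa g) W z) = z := hole_at hr k h z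
theorem pat (hy : Hy g H) {r W1 W2 : List Lt} (hr : (r.map g).prod = 1) (k : ℕ) (h : r.drop k ++ r.take k = W1 ++ (W2.map inv).reverse) (z : G ⧸ H) : act (fa g) W1 z = act (fa g) W2 z := pair_at hy.1 hr k h z
theorem ivt (hy : Hy g H) (x x' : Lt) (hx : inv x = x') (z : G ⧸ H) : fa g x (fa g x' z) = z := inv_rel hy.1 x x' hx z
theorem rf_0 (hy : Hy g H) : (([.z, .p, .zi, .pi] : List Lt).map g).prod = 1 := hy.2.1 _ (by decide +kernel)
theorem rb_0 (hy : Hy g H) : (([.p, .z, .pi, .zi] : List Lt).map g).prod = 1 := inv_at hy.1 (rf_0 hy)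
theorem rf_1 (hy : Hy g H) : (([.z, .q, .zi, .qi] : List Lt).map g).prod = 1 := hy.2.1 _ (by decide +kernel)
theorem rb_1 (hy : Hy g H) : (([.q, .z, .qi, .zi] : List Lt).map g).prod = 1 := inv_at hy.1 (rf_1 hy)
theorem rf_2 (hy : Hy g H) : (([.z, .y, .zi, .yi] : List Lt).map g).prod = 1 := hy.2.1 _ (by decide +kernel)
theorem rb_2 (hy : Hy g H) : (([.y, .z, .yi, .zi] : List Lt).map g).prod = 1 := inv_at hy.1 (rf_2 hy)
theorem rf_3 (hy : Hy g H) : (([.y, .p, .yi, .pi] : List Lt).map g).prod = 1 := hy.2.1 _ (by decide +kernel)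
theorem rb_3 (hy : Hy g H) : (([.p, .y, .pi, .yi] : List Lt).map g).prod = 1 := inv_at hy.1 (rf_3 hy)
theorem rf_4 (hy : Hy g H) : (([.y, .q, .yi, .qi] : List Lt).map g).prod = 1 := hy.2.1 _ (by decide +kernel)
theorem rb_4 (hy : Hy g H) : (([.q, .y, .qi, .yi] : List Lt).map g).prod = 1 := inv_at hy.1 (rf_4 hy)
theorem rf_5 (hy : Hy g H) : (([.z, .z, .z, .z, .z, .z, .z, .z, .z] : List Lt).map g).prod = 1 := hy.2.1 _ (by decide +kernel)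
theorem rb_5 (hy : Hy g H) : (([.zi, .zi, .zi, .zi, .zi, .zi, .zi, .zi, .zi] : List Lt).map g).prod = 1 := inv_at hy.1 (rf_5 hy)
theorem rf_6 (hy : Hy g H) : (([.y, .y, .y, .y, .y, .y, .y, .y, .y] : List Lt).map g).prod = 1 := hy.2.1 _ (by decide +kernel)
theorem rb_6 (hy : Hy g H) : (([.yi, .yi, .yi, .yi, .yi, .yi, .yi, .yi, .yi] : List Lt).map g).prod = 1 := inv_at hy.1 (rf_6 hy)
theorem rf_7 (hy : Hy g H) : (([.q, .pi, .pi, .qi, .p, .q, .p, .p, .qi, .p] : List Lt).map g).prod = 1 := hy.2.1 _ (by decide +kernel)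
theorem rb_7 (hy : Hy g H) : (([.pi, .q, .pi, .pi, .qi, .pi, .q, .p, .p, .qi] : List Lt).map g).prod = 1 := inv_at hy.1 (rf_7 hy)
theorem rf_8 (hy : Hy g H) : (([.p, .qi, .qi, .p, .qi, .qi, .p, .qi, .qi, .zi] : List Lt).map g).prod = 1 := hy.2.1 _ (by decide +kernel)
theorem rb_8 (hy : Hy g H) : (([.z, .q, .q, .pi, .q, .q, .pi, .q, .q, .pi] : List Lt).map g).prod = 1 := inv_at hy.1 (rf_8 hy)
theorem rf_9 (hy : Hy g H) : (([.p, .q, .pi, .qi, .qi, .pi, .q, .p, .qi, .qi, .yi] : List Lt).map g).prod = 1 := hy.2.1 _ (by decide +kernel)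
theorem rb_9 (hy : Hy g H) : (([.y, .q, .q, .pi, .qi, .p, .q, .q, .p, .qi, .pi] : List Lt).map g).prod = 1 := inv_at hy.1 (rf_9 hy)
theorem rf_10 (hy : Hy g H) : (([.q, .p, .qi, .p, .q, .pi, .qi, .pi, .q, .pi, .qi, .p] : List Lt).map g).prod = 1 := hy.2.1 _ (by decide +kernel)
theorem rb_10 (hy : Hy g H) : (([.pi, .q, .p, .qi, .p, .q, .p, .qi, .pi, .q, .pi, .qi] : List Lt).map g).prod = 1 := inv_at hy.1 (rf_10 hy)
theorem rf_11 (hy : Hy g H) : (([.p, .q, .p, .q, .pi, .q, .q, .p, .q, .pi, .qi, .qi, .p, .qi, .pi, .qi, .pi, .q] : List Lt).map g).prod = 1 := hy.2.1 _ (by decide +kernel)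
theorem rb_11 (hy : Hy g H) : (([.qi, .p, .q, .p, .q, .pi, .q, .q, .p, .qi, .pi, .qi, .qi, .p, .qi, .pi, .qi, .pi] : List Lt).map g).prod = 1 := inv_at hy.1 (rf_11 hy)
theorem rf_12 (hy : Hy g H) : (([.p, .pi] : List Lt).map g).prod = 1 := hy.2.1 _ (by decide +kernel)
theorem rb_12 (hy : Hy g H) : (([.p, .pi] : List Lt).map g).prod = 1 := inv_at hy.1 (rf_12 hy)
theorem rf_13 (hy : Hy g H) : (([.pi, .p] : List Lt).map g).prod = 1 := hy.2.1 _ (by decide +kernel)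
theorem rb_13 (hy : Hy g H) : (([.pi, .p] : List Lt).map g).prod = 1 := inv_at hy.1 (rf_13 hy)
theorem rf_14 (hy : Hy g H) : (([.q, .qi] : List Lt).map g).prod = 1 := hy.2.1 _ (by decide +kernel)
theorem rb_14 (hy : Hy g H) : (([.q, .qi] : List Lt).map g).prod = 1 := inv_at hy.1 (rf_14 hy)
theorem rf_15 (hy : Hy g H) : (([.qi, .q] : List Lt).map g).prod = 1 := hy.2.1 _ (by decide +kernel)
theorem rb_15 (hy : Hy g H) : (([.qi, .q] : List Lt).map g).prod = 1 := inv_at hy.1 (rf_15 hy)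
theorem rf_16 (hy : Hy g H) : (([.z, .zi] : List Lt).map g).prod = 1 := hy.2.1 _ (by decide +kernel)
theorem rb_16 (hy : Hy g H) : (([.z, .zi] : List Lt).map g).prod = 1 := inv_at hy.1 (rf_16 hy)
theorem rf_17 (hy : Hy g H) : (([.zi, .z] : List Lt).map g).prod = 1 := hy.2.1 _ (by decide +kernel)
theorem rb_17 (hy : Hy g H) : (([.zi, .z] : List Lt).map g).prod = 1 := inv_at hy.1 (rf_17 hy)
theorem rf_18 (hy : Hy g H) : (([.y, .yi] : List Lt).map g).prod = 1 := hy.2.1 _ (by decide +kernel)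
theorem rb_18 (hy : Hy g H) : (([.y, .yi] : List Lt).map g).prod = 1 := inv_at hy.1 (rf_18 hy)
theorem rf_19 (hy : Hy g H) : (([.yi, .y] : List Lt).map g).prod = 1 := hy.2.1 _ (by decide +kernel)
theorem rb_19 (hy : Hy g H) : (([.yi, .y] : List Lt).map g).prod = 1 := inv_at hy.1 (rf_19 hy)
/-- the points of the nodes -/
noncomputable def cP (g : Lt → G) (H : Subgroup G) : ℕ → G ⧸ H := cc (fa g) lt P ((1 : G) : G ⧸ H)
/-- soundness of an entry -/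
abbrev Gd (g : Lt → G) (H : Subgroup G) (x : Lt) (u : ℕ) : Prop := Good (fa g) T MG M (cP g H) x u
/-- soundness of a merge -/
abbrev GdM (g : Lt → G) (H : Subgroup G) (u : ℕ) : Prop := GoodM (fa g) T MG M (cP g H) u
theorem dp_p_0_s (hy : Hy g H)
    (j u : ℕ) (hu : u < M) (h : dp_p_0 j u = true) : Gd g H Lt.p u := by
  unfold dp_p_0 at h
  rcases brec_true h with h | h
  · exact lF3_good (T := T) (x := Lt.p) hM0 .y .pi .yi (hat (rb_3 hy) 1 rfl) h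
  · exact lS_good (T := T) (x := Lt.p) hM0 hu [Lt.pi] (hat (rf_12 hy) 1 rfl) h
theorem dp_p_1_s (hy : Hy g H)
    (j u : ℕ) (hu : u < M) (h : dp_p_1 j u = true) : Gd g H Lt.p u := by
  unfold dp_p_1 at h
  rcases brec_true h with h | h
  · exact lS_good (T := T) (x := Lt.p) hM0 hu [Lt.q, Lt.p, Lt.p, Lt.qi, Lt.p, Lt.q, Lt.pi, Lt.pi, Lt.qi] (hat (rf_7 hy) 5 rfl) h
  · exact lS_good (T := T) (x := Lt.p) hM0 hu [Lt.zi, Lt.pi, Lt.z] (hat (rf_0 hy) 2 rfl) h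
theorem dp_p_2_s (hy : Hy g H)
    (j u : ℕ) (hu : u < M) (h : dp_p_2 j u = true) : Gd g H Lt.p u := by
  unfold dp_p_2 at h
  rcases brec_true h with h | h
  · exact lS_good (T := T) (x := Lt.p) hM0 hu [Lt.qi, Lt.p, Lt.q, Lt.pi, Lt.pi, Lt.qi, Lt.p, Lt.q, Lt.p] (hat (rf_7 hy) 8 rfl) h
  · exact dp_p_1_s hy j u hu h
theorem dp_p_3_s (hy : Hy g H)
    (j u : ℕ) (hu : u < M) (h : dp_p_3 j u = true) : Gd g H Lt.p u := by
  unfold dp_p_3 at h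
  rcases brec_true h with h | h
  · exact lS_good (T := T) (x := Lt.p) hM0 hu [Lt.p, Lt.qi, Lt.p, Lt.q, Lt.pi, Lt.pi, Lt.qi, Lt.p, Lt.q] (hat (rf_7 hy) 7 rfl) h
  · exact lS_good (T := T) (x := Lt.p) hM0 hu [Lt.q, Lt.pi, Lt.pi, Lt.qi, Lt.p, Lt.q, Lt.p, Lt.p, Lt.qi] (hat (rf_7 hy) 0 rfl) h
theorem dp_p_4_s (hy : Hy g H)
    (j u : ℕ) (hu : u < M) (h : dp_p_4 j u = true) : Gd g H Lt.p u := by
  unfold dp_p_4 at h
  rcases brec_true h with h | h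
  · exact lS_good (T := T) (x := Lt.p) hM0 hu [Lt.z, Lt.pi, Lt.zi] (hat (rb_0 hy) 1 rfl) h
  · exact lS_good (T := T) (x := Lt.p) hM0 hu [Lt.y, Lt.pi, Lt.yi] (hat (rb_3 hy) 1 rfl) h
theorem dp_p_5_s (hy : Hy g H)
    (j u : ℕ) (hu : u < M) (h : dp_p_5 j u = true) : Gd g H Lt.p u := by
  unfold dp_p_5 at h
  rcases brec_true h with h | h
  · exact dp_p_3_s hy j u hu h
  · exact dp_p_4_s hy j u hu h
theorem dp_p_6_s (hy : Hy g H)
    (j u : ℕ) (hu : u < M) (h : dp_p_6 j u = true) : Gd g H Lt.p u := by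
  unfold dp_p_6 at h
  rcases brec_true h with h | h
  · exact dp_p_2_s hy j u hu h
  · exact dp_p_5_s hy j u hu h
theorem dp_p_7_s (hy : Hy g H)
    (j u : ℕ) (hu : u < M) (h : dp_p_7 j u = true) : Gd g H Lt.p u := by
  unfold dp_p_7 at h
  rcases brec_true h with h | h
  · exact lF_good (T := T) (x := Lt.p) hM0 [Lt.qi, Lt.p, Lt.q, Lt.pi, Lt.pi, Lt.qi, Lt.p, Lt.q, Lt.p] (hat (rf_7 hy) 8 rfl) h
  · exact lF_good (T := T) (x := Lt.p) hM0 [Lt.q, Lt.pi, Lt.pi, Lt.qi, Lt.p, Lt.q, Lt.p, Lt.p, Lt.qi] (hat (rf_7 hy) 0 rfl) h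
theorem dp_p_8_s (hy : Hy g H)
    (j u : ℕ) (hu : u < M) (h : dp_p_8 j u = true) : Gd g H Lt.p u := by
  unfold dp_p_8 at h
  rcases brec_true h with h | h
  · exact lS_good (T := T) (x := Lt.p) hM0 hu [Lt.q, Lt.q, Lt.p, Lt.qi, Lt.pi, Lt.y, Lt.q, Lt.q, Lt.pi, Lt.qi] (hat (rb_9 hy) 6 rfl) h
  · exact lS_good (T := T) (x := Lt.p) hM0 hu [Lt.qi, Lt.qi, Lt.yi, Lt.p, Lt.q, Lt.pi, Lt.qi, Lt.qi, Lt.pi, Lt.q] (hat (rf_9 hy) 8 rfl) h
theorem dp_p_9_s (hy : Hy g H)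
    (j u : ℕ) (hu : u < M) (h : dp_p_9 j u = true) : Gd g H Lt.p u := by
  unfold dp_p_9 at h
  rcases brec_true h with h | h
  · exact lS_good (T := T) (x := Lt.p) hM0 hu [Lt.qi, Lt.qi, Lt.p, Lt.qi, Lt.qi, Lt.p, Lt.qi, Lt.qi, Lt.zi] (hat (rf_8 hy) 1 rfl) h
  · exact dp_p_8_s hy j u hu h
theorem dp_p_10_s (hy : Hy g H)
    (j u : ℕ) (hu : u < M) (h : dp_p_10 j u = true) : Gd g H Lt.p u := by
  unfold dp_p_10 at h
  rcases brec_true h with h | h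
  · exact dp_p_7_s hy j u hu h
  · exact dp_p_9_s hy j u hu h
theorem dp_p_11_s (hy : Hy g H)
    (j u : ℕ) (hu : u < M) (h : dp_p_11 j u = true) : Gd g H Lt.p u := by
  unfold dp_p_11 at h
  rcases brec_true h with h | h
  · exact lF_good (T := T) (x := Lt.p) hM0 [Lt.q, Lt.q, Lt.p, Lt.qi, Lt.pi, Lt.y, Lt.q, Lt.q, Lt.pi, Lt.qi] (hat (rb_9 hy) 6 rfl) h
  · exact lF_good (T := T) (x := Lt.p) hM0 [Lt.q, Lt.pi, Lt.qi, Lt.qi, Lt.pi, Lt.q, Lt.p, Lt.qi, Lt.qi, Lt.yi] (hat (rf_9 hy) 1 rfl) h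
theorem dp_p_12_s (hy : Hy g H)
    (j u : ℕ) (hu : u < M) (h : dp_p_12 j u = true) : Gd g H Lt.p u := by
  unfold dp_p_12 at h
  rcases brec_true h with h | h
  · exact lS_good (T := T) (x := Lt.p) hM0 hu [Lt.yi, Lt.pi, Lt.y] (hat (rf_3 hy) 2 rfl) h
  · exact lF_good (T := T) (x := Lt.p) hM0 [Lt.q, Lt.p, Lt.p, Lt.qi, Lt.p, Lt.q, Lt.pi, Lt.pi, Lt.qi] (hat (rf_7 hy) 5 rfl) h
theorem dp_p_13_s (hy : Hy g H)
    (j u : ℕ) (hu : u < M) (h : dp_p_13 j u = true) : Gd g H Lt.p u := by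
  unfold dp_p_13 at h
  rcases brec_true h with h | h
  · exact lF_good (T := T) (x := Lt.p) hM0 [Lt.q, Lt.p, Lt.qi, Lt.pi, Lt.q, Lt.pi, Lt.qi, Lt.pi, Lt.q, Lt.p, Lt.qi] (hat (rb_10 hy) 5 rfl) h
  · exact dp_p_12_s hy j u hu h
theorem dp_p_14_s (hy : Hy g H)
    (j u : ℕ) (hu : u < M) (h : dp_p_14 j u = true) : Gd g H Lt.p u := by
  unfold dp_p_14 at h
  rcases brec_true h with h | h
  · exact dp_p_11_s hy j u hu h
  · exact dp_p_13_s hy j u hu h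
theorem dp_p_15_s (hy : Hy g H)
    (j u : ℕ) (hu : u < M) (h : dp_p_15 j u = true) : Gd g H Lt.p u := by
  unfold dp_p_15 at h
  rcases brec_true h with h | h
  · exact lF_good (T := T) (x := Lt.p) hM0 [Lt.q, Lt.pi, Lt.qi, Lt.pi, Lt.q, Lt.pi, Lt.qi, Lt.p, Lt.q, Lt.p, Lt.qi] (hat (rf_10 hy) 4 rfl) h
  · exact lF_good (T := T) (x := Lt.p) hM0 [Lt.p, Lt.qi, Lt.p, Lt.q, Lt.pi, Lt.pi, Lt.qi, Lt.p, Lt.q] (hat (rf_7 hy) 7 rfl) h
theorem dp_p_16_s (hy : Hy g H)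
    (j u : ℕ) (hu : u < M) (h : dp_p_16 j u = true) : Gd g H Lt.p u := by
  unfold dp_p_16 at h
  rcases brec_true h with h | h
  · exact lS_good (T := T) (x := Lt.p) hM0 hu [Lt.qi, Lt.pi, Lt.q, Lt.pi, Lt.pi, Lt.qi, Lt.pi, Lt.q, Lt.p] (hat (rb_7 hy) 9 rfl) h
  · exact dp_p_15_s hy j u hu h
theorem dp_p_17_s (hy : Hy g H)
    (j u : ℕ) (hu : u < M) (h : dp_p_17 j u = true) : Gd g H Lt.p u := by
  unfold dp_p_17 at h
  rcases brec_true h with h | h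
  · exact lF_good (T := T) (x := Lt.p) hM0 [Lt.p, Lt.qi, Lt.pi, Lt.q, Lt.pi, Lt.pi, Lt.qi, Lt.pi, Lt.q] (hat (rb_7 hy) 8 rfl) h
  · exact lF_good (T := T) (x := Lt.p) hM0 [Lt.qi, Lt.qi, Lt.p, Lt.qi, Lt.qi, Lt.zi, Lt.p, Lt.qi, Lt.qi] (hat (rf_8 hy) 4 rfl) h
theorem dp_p_18_s (hy : Hy g H)
    (j u : ℕ) (hu : u < M) (h : dp_p_18 j u = true) : Gd g H Lt.p u := by
  unfold dp_p_18 at h
  rcases brec_true h with h | h
  · exact lF_good (T := T) (x := Lt.p) hM0 [Lt.qi, Lt.pi, Lt.y, Lt.q, Lt.q, Lt.pi, Lt.qi, Lt.p, Lt.q, Lt.q] (hat (rb_9 hy) 9 rfl) h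
  · exact dp_p_17_s hy j u hu h
theorem dp_p_19_s (hy : Hy g H)
    (j u : ℕ) (hu : u < M) (h : dp_p_19 j u = true) : Gd g H Lt.p u := by
  unfold dp_p_19 at h
  rcases brec_true h with h | h
  · exact dp_p_16_s hy j u hu h
  · exact dp_p_18_s hy j u hu h
theorem dp_p_20_s (hy : Hy g H)
    (j u : ℕ) (hu : u < M) (h : dp_p_20 j u = true) : Gd g H Lt.p u := by
  unfold dp_p_20 at h
  rcases brec_true h with h | h
  · exact dp_p_14_s hy j u hu h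
  · exact dp_p_19_s hy j u hu h
theorem dp_p_21_s (hy : Hy g H)
    (j u : ℕ) (hu : u < M) (h : dp_p_21 j u = true) : Gd g H Lt.p u := by
  unfold dp_p_21 at h
  rcases brec_true h with h | h
  · exact dp_p_10_s hy j u hu h
  · exact dp_p_20_s hy j u hu h
theorem dp_p_22_s (hy : Hy g H)
    (j u : ℕ) (hu : u < M) (h : dp_p_22 j u = true) : Gd g H Lt.p u := by
  unfold dp_p_22 at h
  rcases brec_true h with h | h
  · exact dp_p_6_s hy j u hu h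
  · exact dp_p_21_s hy j u hu h
theorem dp_p_23_s (hy : Hy g H)
    (j u : ℕ) (hu : u < M) (h : dp_p_23 j u = true) : Gd g H Lt.p u := by
  unfold dp_p_23 at h
  rcases brec_true h with h | h
  · exact dp_p_0_s hy j u hu h
  · exact dp_p_22_s hy j u hu h
theorem dp_p_24_s (hy : Hy g H)
    (j u : ℕ) (hu : u < M) (h : dp_p_24 j u = true) : Gd g H Lt.p u := by
  unfold dp_p_24 at h
  rcases brec_true h with h | h
  · rcases brec_true h with h | h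
    · exact lF3_good (T := T) (x := Lt.p) hM0 .zi .pi .z (hat (rf_0 hy) 2 rfl) h
    · exact lF3_good (T := T) (x := Lt.p) hM0 .yi .pi .y (hat (rf_3 hy) 2 rfl) h
  · exact dp_p_23_s hy j u hu h
theorem snd_p (hy : Hy g H)
    (j u : ℕ) (hu : u < M) (h : disp_p j u = true) : Gd g H Lt.p u := by
  unfold disp_p at h
  rcases brec_true h with h | h
  · rcases brec_true h with h | h
    · exact lF1_good (T := T) (x := Lt.p) hM0 .pi (hat (rf_12 hy) 1 rfl) h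
    · exact lDef_good (T := T) (x := Lt.p) (by decide) rfl h
  · rcases brec_true h with h | h
    · rcases brec_true h with h | h
      · exact lPar_good (T := T) (x := Lt.p) (x' := Lt.pi) (by decide) rfl (ivt hy _ _ rfl) h
      · exact lF3_good (T := T) (x := Lt.p) hM0 .z .pi .zi (hat (rb_0 hy) 1 rfl) h
    · exact dp_p_24_s hy j u hu h
theorem snc_p (hy : Hy g H)
    (j u : ℕ) (hu : u < M) (h : chk_p j u = true) : (T Lt.p u < A ∧ Gd g H Lt.p u) ∨ (A ≤ T Lt.p u ∧ MG u < A) := by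
  unfold chk_p at h
  cases hb : Nat.ble A (T_p u) with
  | true => rw [hb] at h; exact Or.inr ⟨le_of_ble hb, le_of_ble h⟩
  | false => rw [hb] at h; exact Or.inl ⟨lt_of_ble_false hb, snd_p hy j u hu h⟩
theorem dp_pi_0_s (hy : Hy g H)
    (j u : ℕ) (hu : u < M) (h : dp_pi_0 j u = true) : Gd g H Lt.pi u := by
  unfold dp_pi_0 at h
  rcases brec_true h with h | h
  · exact lF_good (T := T) (x := Lt.pi) hM0 [Lt.q, Lt.p, Lt.p, Lt.qi, Lt.pi, Lt.q, Lt.pi, Lt.pi, Lt.qi] (hat (rb_7 hy) 6 rfl) h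
  · exact lF_good (T := T) (x := Lt.pi) hM0 [Lt.qi, Lt.pi, Lt.q, Lt.p, Lt.p, Lt.qi, Lt.pi, Lt.q, Lt.pi] (hat (rb_7 hy) 4 rfl) h
theorem dp_pi_1_s (hy : Hy g H)
    (j u : ℕ) (hu : u < M) (h : dp_pi_1 j u = true) : Gd g H Lt.pi u := by
  unfold dp_pi_1 at h
  rcases brec_true h with h | h
  · exact lS_good (T := T) (x := Lt.pi) hM0 hu [Lt.p] (hat (rf_12 hy) 0 rfl) h
  · exact dp_pi_0_s hy j u hu h
theorem dp_pi_2_s (hy : Hy g H)
    (j u : ℕ) (hu : u < M) (h : dp_pi_2 j u = true) : Gd g H Lt.pi u := by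
  unfold dp_pi_2 at h
  rcases brec_true h with h | h
  · exact lF3_good (T := T) (x := Lt.pi) hM0 .yi .p .y (hat (rb_3 hy) 3 rfl) h
  · exact dp_pi_1_s hy j u hu h
theorem dp_pi_3_s (hy : Hy g H)
    (j u : ℕ) (hu : u < M) (h : dp_pi_3 j u = true) : Gd g H Lt.pi u := by
  unfold dp_pi_3 at h
  rcases brec_true h with h | h
  · exact lS_good (T := T) (x := Lt.pi) hM0 hu [Lt.q, Lt.p, Lt.p, Lt.qi, Lt.pi, Lt.q, Lt.pi, Lt.pi, Lt.qi] (hat (rb_7 hy) 6 rfl) h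
  · exact lS_good (T := T) (x := Lt.pi) hM0 hu [Lt.q, Lt.q, Lt.pi, Lt.q, Lt.q, Lt.pi, Lt.z, Lt.q, Lt.q] (hat (rb_8 hy) 4 rfl) h
theorem dp_pi_4_s (hy : Hy g H)
    (j u : ℕ) (hu : u < M) (h : dp_pi_4 j u = true) : Gd g H Lt.pi u := by
  unfold dp_pi_4 at h
  rcases brec_true h with h | h
  · exact lF_good (T := T) (x := Lt.pi) hM0 [Lt.pi, Lt.qi, Lt.pi, Lt.q, Lt.p, Lt.p, Lt.qi, Lt.pi, Lt.q] (hat (rb_7 hy) 3 rfl) h
  · exact dp_pi_3_s hy j u hu h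
theorem dp_pi_5_s (hy : Hy g H)
    (j u : ℕ) (hu : u < M) (h : dp_pi_5 j u = true) : Gd g H Lt.pi u := by
  unfold dp_pi_5 at h
  rcases brec_true h with h | h
  · exact lS_good (T := T) (x := Lt.pi) hM0 hu [Lt.q, Lt.q, Lt.pi, Lt.z, Lt.q, Lt.q, Lt.pi, Lt.q, Lt.q] (hat (rb_8 hy) 7 rfl) h
  · exact lF_good (T := T) (x := Lt.pi) hM0 [Lt.q, Lt.q, Lt.pi, Lt.q, Lt.q, Lt.pi, Lt.z, Lt.q, Lt.q] (hat (rb_8 hy) 4 rfl) h
theorem dp_pi_6_s (hy : Hy g H)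
    (j u : ℕ) (hu : u < M) (h : dp_pi_6 j u = true) : Gd g H Lt.pi u := by
  unfold dp_pi_6 at h
  rcases brec_true h with h | h
  · exact lS_good (T := T) (x := Lt.pi) hM0 hu [Lt.pi, Lt.qi, Lt.p, Lt.q, Lt.p, Lt.p, Lt.qi, Lt.p, Lt.q] (hat (rf_7 hy) 2 rfl) h
  · exact lS_good (T := T) (x := Lt.pi) hM0 hu [Lt.qi, Lt.p, Lt.q, Lt.p, Lt.p, Lt.qi, Lt.p, Lt.q, Lt.pi] (hat (rf_7 hy) 3 rfl) h
theorem dp_pi_7_s (hy : Hy g H)
    (j u : ℕ) (hu : u < M) (h : dp_pi_7 j u = true) : Gd g H Lt.pi u := by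
  unfold dp_pi_7 at h
  rcases brec_true h with h | h
  · exact dp_pi_5_s hy j u hu h
  · exact dp_pi_6_s hy j u hu h
theorem dp_pi_8_s (hy : Hy g H)
    (j u : ℕ) (hu : u < M) (h : dp_pi_8 j u = true) : Gd g H Lt.pi u := by
  unfold dp_pi_8 at h
  rcases brec_true h with h | h
  · exact dp_pi_4_s hy j u hu h
  · exact dp_pi_7_s hy j u hu h
theorem dp_pi_9_s (hy : Hy g H)
    (j u : ℕ) (hu : u < M) (h : dp_pi_9 j u = true) : Gd g H Lt.pi u := by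
  unfold dp_pi_9 at h
  rcases brec_true h with h | h
  · exact lF_good (T := T) (x := Lt.pi) hM0 [Lt.qi, Lt.p, Lt.q, Lt.q, Lt.p, Lt.qi, Lt.pi, Lt.y, Lt.q, Lt.q] (hat (rb_9 hy) 4 rfl) h
  · exact lS_good (T := T) (x := Lt.pi) hM0 hu [Lt.qi, Lt.qi, Lt.pi, Lt.q, Lt.p, Lt.qi, Lt.qi, Lt.yi, Lt.p, Lt.q] (hat (rf_9 hy) 3 rfl) h
theorem dp_pi_10_s (hy : Hy g H)
    (j u : ℕ) (hu : u < M) (h : dp_pi_10 j u = true) : Gd g H Lt.pi u := by
  unfold dp_pi_10 at h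
  rcases brec_true h with h | h
  · exact lS_good (T := T) (x := Lt.pi) hM0 hu [Lt.qi, Lt.pi, Lt.q, Lt.p, Lt.p, Lt.qi, Lt.pi, Lt.q, Lt.pi] (hat (rb_7 hy) 4 rfl) h
  · exact dp_pi_9_s hy j u hu h
theorem dp_pi_11_s (hy : Hy g H)
    (j u : ℕ) (hu : u < M) (h : dp_pi_11 j u = true) : Gd g H Lt.pi u := by
  unfold dp_pi_11 at h
  rcases brec_true h with h | h
  · exact lS_good (T := T) (x := Lt.pi) hM0 hu [Lt.zi, Lt.p, Lt.z] (hat (rb_0 hy) 3 rfl) h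
  · exact lF_good (T := T) (x := Lt.pi) hM0 [Lt.q, Lt.pi, Lt.pi, Lt.qi, Lt.pi, Lt.q, Lt.p, Lt.p, Lt.qi] (hat (rb_7 hy) 1 rfl) h
theorem dp_pi_12_s (hy : Hy g H)
    (j u : ℕ) (hu : u < M) (h : dp_pi_12 j u = true) : Gd g H Lt.pi u := by
  unfold dp_pi_12 at h
  rcases brec_true h with h | h
  · exact lF_good (T := T) (x := Lt.pi) hM0 [Lt.y, Lt.q, Lt.q, Lt.pi, Lt.qi, Lt.p, Lt.q, Lt.q, Lt.p, Lt.qi] (hat (rb_9 hy) 0 rfl) h
  · exact dp_pi_11_s hy j u hu h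
theorem dp_pi_13_s (hy : Hy g H)
    (j u : ℕ) (hu : u < M) (h : dp_pi_13 j u = true) : Gd g H Lt.pi u := by
  unfold dp_pi_13 at h
  rcases brec_true h with h | h
  · exact dp_pi_10_s hy j u hu h
  · exact dp_pi_12_s hy j u hu h
theorem dp_pi_14_s (hy : Hy g H)
    (j u : ℕ) (hu : u < M) (h : dp_pi_14 j u = true) : Gd g H Lt.pi u := by
  unfold dp_pi_14 at h
  rcases brec_true h with h | h
  · exact lS_good (T := T) (x := Lt.pi) hM0 hu [Lt.y, Lt.p, Lt.yi] (hat (rf_3 hy) 0 rfl) h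
  · exact lF_good (T := T) (x := Lt.pi) hM0 [Lt.q, Lt.p, Lt.qi, Lt.p, Lt.q, Lt.p, Lt.qi, Lt.pi, Lt.q, Lt.pi, Lt.qi] (hat (rb_10 hy) 1 rfl) h
theorem dp_pi_15_s (hy : Hy g H)
    (j u : ℕ) (hu : u < M) (h : dp_pi_15 j u = true) : Gd g H Lt.pi u := by
  unfold dp_pi_15 at h
  rcases brec_true h with h | h
  · exact lF_good (T := T) (x := Lt.pi) hM0 [Lt.q, Lt.q, Lt.pi, Lt.z, Lt.q, Lt.q, Lt.pi, Lt.q, Lt.q] (hat (rb_8 hy) 7 rfl) h
  · exact dp_pi_14_s hy j u hu h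
theorem dp_pi_16_s (hy : Hy g H)
    (j u : ℕ) (hu : u < M) (h : dp_pi_16 j u = true) : Gd g H Lt.pi u := by
  unfold dp_pi_16 at h
  rcases brec_true h with h | h
  · exact lS_good (T := T) (x := Lt.pi) hM0 hu [Lt.z, Lt.p, Lt.zi] (hat (rf_0 hy) 0 rfl) h
  · exact lF_good (T := T) (x := Lt.pi) hM0 [Lt.qi, Lt.qi, Lt.pi, Lt.q, Lt.p, Lt.qi, Lt.qi, Lt.yi, Lt.p, Lt.q] (hat (rf_9 hy) 3 rfl) h
theorem dp_pi_17_s (hy : Hy g H)
    (j u : ℕ) (hu : u < M) (h : dp_pi_17 j u = true) : Gd g H Lt.pi u := by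
  unfold dp_pi_17 at h
  rcases brec_true h with h | h
  · exact lF_good (T := T) (x := Lt.pi) hM0 [Lt.qi, Lt.p, Lt.q, Lt.p, Lt.p, Lt.qi, Lt.p, Lt.q, Lt.pi] (hat (rf_7 hy) 3 rfl) h
  · exact dp_pi_16_s hy j u hu h
theorem dp_pi_18_s (hy : Hy g H)
    (j u : ℕ) (hu : u < M) (h : dp_pi_18 j u = true) : Gd g H Lt.pi u := by
  unfold dp_pi_18 at h
  rcases brec_true h with h | h
  · exact dp_pi_15_s hy j u hu h
  · exact dp_pi_17_s hy j u hu h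
theorem dp_pi_19_s (hy : Hy g H)
    (j u : ℕ) (hu : u < M) (h : dp_pi_19 j u = true) : Gd g H Lt.pi u := by
  unfold dp_pi_19 at h
  rcases brec_true h with h | h
  · exact lS_good (T := T) (x := Lt.pi) hM0 hu [Lt.q, Lt.p, Lt.qi, Lt.qi, Lt.yi, Lt.p, Lt.q, Lt.pi, Lt.qi, Lt.qi] (hat (rf_9 hy) 6 rfl) h
  · exact lS_good (T := T) (x := Lt.pi) hM0 hu [Lt.q, Lt.pi, Lt.pi, Lt.qi, Lt.pi, Lt.q, Lt.p, Lt.p, Lt.qi] (hat (rb_7 hy) 1 rfl) h
theorem dp_pi_20_s (hy : Hy g H)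
    (j u : ℕ) (hu : u < M) (h : dp_pi_20 j u = true) : Gd g H Lt.pi u := by
  unfold dp_pi_20 at h
  rcases brec_true h with h | h
  · exact lS_good (T := T) (x := Lt.pi) hM0 hu [Lt.pi, Lt.qi, Lt.pi, Lt.q, Lt.p, Lt.p, Lt.qi, Lt.pi, Lt.q] (hat (rb_7 hy) 3 rfl) h
  · exact dp_pi_19_s hy j u hu h
theorem dp_pi_21_s (hy : Hy g H)
    (j u : ℕ) (hu : u < M) (h : dp_pi_21 j u = true) : Gd g H Lt.pi u := by
  unfold dp_pi_21 at h
  rcases brec_true h with h | h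
  · exact lS_good (T := T) (x := Lt.pi) hM0 hu [Lt.z, Lt.q, Lt.q, Lt.pi, Lt.q, Lt.q, Lt.pi, Lt.q, Lt.q] (hat (rb_8 hy) 0 rfl) h
  · exact lF_good (T := T) (x := Lt.pi) hM0 [Lt.qi, Lt.pi, Lt.q, Lt.pi, Lt.qi, Lt.p, Lt.q, Lt.p, Lt.qi, Lt.p, Lt.q] (hat (rf_10 hy) 6 rfl) h
theorem dp_pi_22_s (hy : Hy g H)
    (j u : ℕ) (hu : u < M) (h : dp_pi_22 j u = true) : Gd g H Lt.pi u := by
  unfold dp_pi_22 at h
  rcases brec_true h with h | h
  · exact lS_good (T := T) (x := Lt.pi) hM0 hu [Lt.y, Lt.q, Lt.q, Lt.pi, Lt.qi, Lt.p, Lt.q, Lt.q, Lt.p, Lt.qi] (hat (rb_9 hy) 0 rfl) h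
  · exact dp_pi_21_s hy j u hu h
theorem dp_pi_23_s (hy : Hy g H)
    (j u : ℕ) (hu : u < M) (h : dp_pi_23 j u = true) : Gd g H Lt.pi u := by
  unfold dp_pi_23 at h
  rcases brec_true h with h | h
  · exact dp_pi_20_s hy j u hu h
  · exact dp_pi_22_s hy j u hu h
theorem dp_pi_24_s (hy : Hy g H)
    (j u : ℕ) (hu : u < M) (h : dp_pi_24 j u = true) : Gd g H Lt.pi u := by
  unfold dp_pi_24 at h
  rcases brec_true h with h | h
  · exact dp_pi_18_s hy j u hu h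
  · exact dp_pi_23_s hy j u hu h
theorem dp_pi_25_s (hy : Hy g H)
    (j u : ℕ) (hu : u < M) (h : dp_pi_25 j u = true) : Gd g H Lt.pi u := by
  unfold dp_pi_25 at h
  rcases brec_true h with h | h
  · exact dp_pi_13_s hy j u hu h
  · exact dp_pi_24_s hy j u hu h
theorem dp_pi_26_s (hy : Hy g H)
    (j u : ℕ) (hu : u < M) (h : dp_pi_26 j u = true) : Gd g H Lt.pi u := by
  unfold dp_pi_26 at h
  rcases brec_true h with h | h
  · exact dp_pi_8_s hy j u hu h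
  · exact dp_pi_25_s hy j u hu h
theorem dp_pi_27_s (hy : Hy g H)
    (j u : ℕ) (hu : u < M) (h : dp_pi_27 j u = true) : Gd g H Lt.pi u := by
  unfold dp_pi_27 at h
  rcases brec_true h with h | h
  · exact dp_pi_2_s hy j u hu h
  · exact dp_pi_26_s hy j u hu h
theorem dp_pi_28_s (hy : Hy g H)
    (j u : ℕ) (hu : u < M) (h : dp_pi_28 j u = true) : Gd g H Lt.pi u := by
  unfold dp_pi_28 at h
  rcases brec_true h with h | h
  · rcases brec_true h with h | h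
    · exact lF3_good (T := T) (x := Lt.pi) hM0 .z .p .zi (hat (rf_0 hy) 0 rfl) h
    · exact lF3_good (T := T) (x := Lt.pi) hM0 .y .p .yi (hat (rf_3 hy) 0 rfl) h
  · exact dp_pi_27_s hy j u hu h
theorem snd_pi (hy : Hy g H)
    (j u : ℕ) (hu : u < M) (h : disp_pi j u = true) : Gd g H Lt.pi u := by
  unfold disp_pi at h
  rcases brec_true h with h | h
  · rcases brec_true h with h | h
    · exact lF1_good (T := T) (x := Lt.pi) hM0 .p (hat (rf_12 hy) 0 rfl) h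
    · exact lPar_good (T := T) (x := Lt.pi) (x' := Lt.p) (by decide) rfl (ivt hy _ _ rfl) h
  · rcases brec_true h with h | h
    · rcases brec_true h with h | h
      · exact lDef_good (T := T) (x := Lt.pi) (by decide) rfl h
      · exact lF3_good (T := T) (x := Lt.pi) hM0 .zi .p .z (hat (rb_0 hy) 3 rfl) h
    · exact dp_pi_28_s hy j u hu h
theorem snc_pi (hy : Hy g H)
    (j u : ℕ) (hu : u < M) (h : chk_pi j u = true) : (T Lt.pi u < A ∧ Gd g H Lt.pi u) ∨ (A ≤ T Lt.pi u ∧ MG u < A) := by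
  unfold chk_pi at h
  cases hb : Nat.ble A (T_pi u) with
  | true => rw [hb] at h; exact Or.inr ⟨le_of_ble hb, le_of_ble h⟩
  | false => rw [hb] at h; exact Or.inl ⟨lt_of_ble_false hb, snd_pi hy j u hu h⟩
theorem dp_q_0_s (hy : Hy g H)
    (j u : ℕ) (hu : u < M) (h : dp_q_0 j u = true) : Gd g H Lt.q u := by
  unfold dp_q_0 at h
  rcases brec_true h with h | h
  · exact lF3_good (T := T) (x := Lt.q) hM0 .yi .qi .y (hat (rf_4 hy) 2 rfl) h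
  · exact lF3_good (T := T) (x := Lt.q) hM0 .y .qi .yi (hat (rb_4 hy) 1 rfl) h
theorem dp_q_1_s (hy : Hy g H)
    (j u : ℕ) (hu : u < M) (h : dp_q_1 j u = true) : Gd g H Lt.q u := by
  unfold dp_q_1 at h
  rcases brec_true h with h | h
  · exact lS_good (T := T) (x := Lt.q) hM0 hu [Lt.qi] (hat (rf_14 hy) 1 rfl) h
  · exact lS_good (T := T) (x := Lt.q) hM0 hu [Lt.z, Lt.qi, Lt.zi] (hat (rb_1 hy) 1 rfl) h
theorem dp_q_2_s (hy : Hy g H)
    (j u : ℕ) (hu : u < M) (h : dp_q_2 j u = true) : Gd g H Lt.q u := by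
  unfold dp_q_2 at h
  rcases brec_true h with h | h
  · exact lS_good (T := T) (x := Lt.q) hM0 hu [Lt.p, Lt.qi, Lt.qi, Lt.yi, Lt.p, Lt.q, Lt.pi, Lt.qi, Lt.qi, Lt.pi] (hat (rf_9 hy) 7 rfl) h
  · exact lS_good (T := T) (x := Lt.q) hM0 hu [Lt.zi, Lt.qi, Lt.z] (hat (rf_1 hy) 2 rfl) h
theorem dp_q_3_s (hy : Hy g H)
    (j u : ℕ) (hu : u < M) (h : dp_q_3 j u = true) : Gd g H Lt.q u := by
  unfold dp_q_3 at h
  rcases brec_true h with h | h
  · exact lF_good (T := T) (x := Lt.q) hM0 [Lt.p, Lt.p, Lt.qi, Lt.p, Lt.q, Lt.pi, Lt.pi, Lt.qi, Lt.p] (hat (rf_7 hy) 6 rfl) h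
  · exact dp_q_2_s hy j u hu h
theorem dp_q_4_s (hy : Hy g H)
    (j u : ℕ) (hu : u < M) (h : dp_q_4 j u = true) : Gd g H Lt.q u := by
  unfold dp_q_4 at h
  rcases brec_true h with h | h
  · exact lS_good (T := T) (x := Lt.q) hM0 hu [Lt.pi, Lt.pi, Lt.qi, Lt.p, Lt.q, Lt.p, Lt.p, Lt.qi, Lt.p] (hat (rf_7 hy) 1 rfl) h
  · exact lS_good (T := T) (x := Lt.q) hM0 hu [Lt.p, Lt.p, Lt.qi, Lt.pi, Lt.q, Lt.pi, Lt.pi, Lt.qi, Lt.pi] (hat (rb_7 hy) 7 rfl) h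
theorem dp_q_5_s (hy : Hy g H)
    (j u : ℕ) (hu : u < M) (h : dp_q_5 j u = true) : Gd g H Lt.q u := by
  unfold dp_q_5 at h
  rcases brec_true h with h | h
  · exact lS_good (T := T) (x := Lt.q) hM0 hu [Lt.q, Lt.pi, Lt.q, Lt.q, Lt.pi, Lt.q, Lt.q, Lt.pi, Lt.z] (hat (rb_8 hy) 2 rfl) h
  · exact dp_q_4_s hy j u hu h
theorem dp_q_6_s (hy : Hy g H)
    (j u : ℕ) (hu : u < M) (h : dp_q_6 j u = true) : Gd g H Lt.q u := by
  unfold dp_q_6 at h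
  rcases brec_true h with h | h
  · exact dp_q_3_s hy j u hu h
  · exact dp_q_5_s hy j u hu h
theorem dp_q_7_s (hy : Hy g H)
    (j u : ℕ) (hu : u < M) (h : dp_q_7 j u = true) : Gd g H Lt.q u := by
  unfold dp_q_7 at h
  rcases brec_true h with h | h
  · exact dp_q_1_s hy j u hu h
  · exact dp_q_6_s hy j u hu h
theorem dp_q_8_s (hy : Hy g H)
    (j u : ℕ) (hu : u < M) (h : dp_q_8 j u = true) : Gd g H Lt.q u := by
  unfold dp_q_8 at h
  rcases brec_true h with h | h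
  · exact lS_good (T := T) (x := Lt.q) hM0 hu [Lt.pi, Lt.q, Lt.q, Lt.pi, Lt.z, Lt.q, Lt.q, Lt.pi, Lt.q] (hat (rb_8 hy) 6 rfl) h
  · exact lF_good (T := T) (x := Lt.q) hM0 [Lt.pi, Lt.q, Lt.q, Lt.pi, Lt.q, Lt.q, Lt.pi, Lt.z, Lt.q] (hat (rb_8 hy) 3 rfl) h
theorem dp_q_9_s (hy : Hy g H)
    (j u : ℕ) (hu : u < M) (h : dp_q_9 j u = true) : Gd g H Lt.q u := by
  unfold dp_q_9 at h
  rcases brec_true h with h | h
  · exact lF_good (T := T) (x := Lt.q) hM0 [Lt.pi, Lt.pi, Lt.qi, Lt.p, Lt.q, Lt.p, Lt.p, Lt.qi, Lt.p] (hat (rf_7 hy) 1 rfl) h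
  · exact lS_good (T := T) (x := Lt.q) hM0 hu [Lt.y, Lt.qi, Lt.yi] (hat (rb_4 hy) 1 rfl) h
theorem dp_q_10_s (hy : Hy g H)
    (j u : ℕ) (hu : u < M) (h : dp_q_10 j u = true) : Gd g H Lt.q u := by
  unfold dp_q_10 at h
  rcases brec_true h with h | h
  · exact dp_q_8_s hy j u hu h
  · exact dp_q_9_s hy j u hu h
theorem dp_q_11_s (hy : Hy g H)
    (j u : ℕ) (hu : u < M) (h : dp_q_11 j u = true) : Gd g H Lt.q u := by
  unfold dp_q_11 at h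
  rcases brec_true h with h | h
  · exact lF_good (T := T) (x := Lt.q) hM0 [Lt.p, Lt.p, Lt.qi, Lt.pi, Lt.q, Lt.pi, Lt.pi, Lt.qi, Lt.pi] (hat (rb_7 hy) 7 rfl) h
  · exact lS_good (T := T) (x := Lt.q) hM0 hu [Lt.q, Lt.pi, Lt.z, Lt.q, Lt.q, Lt.pi, Lt.q, Lt.q, Lt.pi] (hat (rb_8 hy) 8 rfl) h
theorem dp_q_12_s (hy : Hy g H)
    (j u : ℕ) (hu : u < M) (h : dp_q_12 j u = true) : Gd g H Lt.q u := by
  unfold dp_q_12 at h
  rcases brec_true h with h | h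
  · exact lS_good (T := T) (x := Lt.q) hM0 hu [Lt.pi, Lt.q, Lt.q, Lt.pi, Lt.q, Lt.q, Lt.pi, Lt.z, Lt.q] (hat (rb_8 hy) 3 rfl) h
  · exact lF_good (T := T) (x := Lt.q) hM0 [Lt.q, Lt.pi, Lt.z, Lt.q, Lt.q, Lt.pi, Lt.q, Lt.q, Lt.pi] (hat (rb_8 hy) 8 rfl) h
theorem dp_q_13_s (hy : Hy g H)
    (j u : ℕ) (hu : u < M) (h : dp_q_13 j u = true) : Gd g H Lt.q u := by
  unfold dp_q_13 at h
  rcases brec_true h with h | h
  · exact dp_q_11_s hy j u hu h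
  · exact dp_q_12_s hy j u hu h
theorem dp_q_14_s (hy : Hy g H)
    (j u : ℕ) (hu : u < M) (h : dp_q_14 j u = true) : Gd g H Lt.q u := by
  unfold dp_q_14 at h
  rcases brec_true h with h | h
  · exact dp_q_10_s hy j u hu h
  · exact dp_q_13_s hy j u hu h
theorem dp_q_15_s (hy : Hy g H)
    (j u : ℕ) (hu : u < M) (h : dp_q_15 j u = true) : Gd g H Lt.q u := by
  unfold dp_q_15 at h
  rcases brec_true h with h | h
  · exact lS_good (T := T) (x := Lt.q) hM0 hu [Lt.p, Lt.p, Lt.qi, Lt.p, Lt.q, Lt.pi, Lt.pi, Lt.qi, Lt.p] (hat (rf_7 hy) 6 rfl) h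
  · exact lS_good (T := T) (x := Lt.q) hM0 hu [Lt.pi, Lt.z, Lt.q, Lt.q, Lt.pi, Lt.q, Lt.q, Lt.pi, Lt.q] (hat (rb_8 hy) 9 rfl) h
theorem dp_q_16_s (hy : Hy g H)
    (j u : ℕ) (hu : u < M) (h : dp_q_16 j u = true) : Gd g H Lt.q u := by
  unfold dp_q_16 at h
  rcases brec_true h with h | h
  · exact lH_good (T := T) (x := Lt.q) hM0 [] [] (by rw [show cP g H 0 = _ from cc_zero]; exact sub_rel hy.1 (hy.2.2 _ (by decide))) h
  · exact lF_good (T := T) (x := Lt.q) hM0 [Lt.pi, Lt.pi, Lt.qi, Lt.pi, Lt.q, Lt.p, Lt.p, Lt.qi, Lt.pi] (hat (rb_7 hy) 2 rfl) h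
theorem dp_q_17_s (hy : Hy g H)
    (j u : ℕ) (hu : u < M) (h : dp_q_17 j u = true) : Gd g H Lt.q u := by
  unfold dp_q_17 at h
  rcases brec_true h with h | h
  · exact lF_good (T := T) (x := Lt.q) hM0 [Lt.q, Lt.pi, Lt.q, Lt.q, Lt.pi, Lt.q, Lt.q, Lt.pi, Lt.z] (hat (rb_8 hy) 2 rfl) h
  · exact lS_good (T := T) (x := Lt.q) hM0 hu [Lt.yi, Lt.qi, Lt.y] (hat (rf_4 hy) 2 rfl) h
theorem dp_q_18_s (hy : Hy g H)
    (j u : ℕ) (hu : u < M) (h : dp_q_18 j u = true) : Gd g H Lt.q u := by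
  unfold dp_q_18 at h
  rcases brec_true h with h | h
  · exact dp_q_16_s hy j u hu h
  · exact dp_q_17_s hy j u hu h
theorem dp_q_19_s (hy : Hy g H)
    (j u : ℕ) (hu : u < M) (h : dp_q_19 j u = true) : Gd g H Lt.q u := by
  unfold dp_q_19 at h
  rcases brec_true h with h | h
  · exact dp_q_15_s hy j u hu h
  · exact dp_q_18_s hy j u hu h
theorem dp_q_20_s (hy : Hy g H)
    (j u : ℕ) (hu : u < M) (h : dp_q_20 j u = true) : Gd g H Lt.q u := by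
  unfold dp_q_20 at h
  rcases brec_true h with h | h
  · exact lF_good (T := T) (x := Lt.q) hM0 [Lt.q, Lt.pi, Lt.qi, Lt.p, Lt.q, Lt.q, Lt.p, Lt.qi, Lt.pi, Lt.y] (hat (rb_9 hy) 2 rfl) h
  · exact lF_good (T := T) (x := Lt.q) hM0 [Lt.p, Lt.qi, Lt.pi, Lt.y, Lt.q, Lt.q, Lt.pi, Lt.qi, Lt.p, Lt.q] (hat (rb_9 hy) 8 rfl) h
theorem dp_q_21_s (hy : Hy g H)
    (j u : ℕ) (hu : u < M) (h : dp_q_21 j u = true) : Gd g H Lt.q u := by
  unfold dp_q_21 at h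
  rcases brec_true h with h | h
  · exact lF_good (T := T) (x := Lt.q) hM0 [Lt.pi, Lt.qi, Lt.qi, Lt.pi, Lt.q, Lt.p, Lt.qi, Lt.qi, Lt.yi, Lt.p] (hat (rf_9 hy) 2 rfl) h
  · exact lS_good (T := T) (x := Lt.q) hM0 hu [Lt.q, Lt.p, Lt.qi, Lt.pi, Lt.qi, Lt.qi, Lt.p, Lt.qi, Lt.pi, Lt.qi, Lt.pi, Lt.qi, Lt.p, Lt.q, Lt.p, Lt.q, Lt.pi] (hat (rb_11 hy) 7 rfl) h
theorem dp_q_22_s (hy : Hy g H)
    (j u : ℕ) (hu : u < M) (h : dp_q_22 j u = true) : Gd g H Lt.q u := by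
  unfold dp_q_22 at h
  rcases brec_true h with h | h
  · exact dp_q_20_s hy j u hu h
  · exact dp_q_21_s hy j u hu h
theorem dp_q_23_s (hy : Hy g H)
    (j u : ℕ) (hu : u < M) (h : dp_q_23 j u = true) : Gd g H Lt.q u := by
  unfold dp_q_23 at h
  rcases brec_true h with h | h
  · exact lS_good (T := T) (x := Lt.q) hM0 hu [Lt.pi, Lt.qi, Lt.p, Lt.q, Lt.q, Lt.p, Lt.qi, Lt.pi, Lt.y, Lt.q] (hat (rb_9 hy) 3 rfl) h
  · exact lS_good (T := T) (x := Lt.q) hM0 hu [Lt.pi, Lt.qi, Lt.qi, Lt.pi, Lt.q, Lt.p, Lt.qi, Lt.qi, Lt.yi, Lt.p] (hat (rf_9 hy) 2 rfl) h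
theorem dp_q_24_s (hy : Hy g H)
    (j u : ℕ) (hu : u < M) (h : dp_q_24 j u = true) : Gd g H Lt.q u := by
  unfold dp_q_24 at h
  rcases brec_true h with h | h
  · exact lS_good (T := T) (x := Lt.q) hM0 hu [Lt.p, Lt.q, Lt.pi, Lt.qi, Lt.qi, Lt.p, Lt.qi, Lt.pi, Lt.qi, Lt.pi, Lt.q, Lt.p, Lt.q, Lt.p, Lt.q, Lt.pi, Lt.q] (hat (rf_11 hy) 7 rfl) h
  · exact lF_good (T := T) (x := Lt.q) hM0 [Lt.pi, Lt.qi, Lt.qi, Lt.p, Lt.qi, Lt.pi, Lt.qi, Lt.pi, Lt.q, Lt.p, Lt.q, Lt.p, Lt.q, Lt.pi, Lt.q, Lt.q, Lt.p] (hat (rf_11 hy) 9 rfl) h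
theorem dp_q_25_s (hy : Hy g H)
    (j u : ℕ) (hu : u < M) (h : dp_q_25 j u = true) : Gd g H Lt.q u := by
  unfold dp_q_25 at h
  rcases brec_true h with h | h
  · exact lS_good (T := T) (x := Lt.q) hM0 hu [Lt.q, Lt.pi, Lt.q, Lt.q, Lt.pi, Lt.z, Lt.q, Lt.q, Lt.pi] (hat (rb_8 hy) 5 rfl) h
  · exact dp_q_24_s hy j u hu h
theorem dp_q_26_s (hy : Hy g H)
    (j u : ℕ) (hu : u < M) (h : dp_q_26 j u = true) : Gd g H Lt.q u := by
  unfold dp_q_26 at h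
  rcases brec_true h with h | h
  · exact dp_q_23_s hy j u hu h
  · exact dp_q_25_s hy j u hu h
theorem dp_q_27_s (hy : Hy g H)
    (j u : ℕ) (hu : u < M) (h : dp_q_27 j u = true) : Gd g H Lt.q u := by
  unfold dp_q_27 at h
  rcases brec_true h with h | h
  · exact dp_q_22_s hy j u hu h
  · exact dp_q_26_s hy j u hu h
theorem dp_q_28_s (hy : Hy g H)
    (j u : ℕ) (hu : u < M) (h : dp_q_28 j u = true) : Gd g H Lt.q u := by
  unfold dp_q_28 at h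
  rcases brec_true h with h | h
  · exact dp_q_19_s hy j u hu h
  · exact dp_q_27_s hy j u hu h
theorem dp_q_29_s (hy : Hy g H)
    (j u : ℕ) (hu : u < M) (h : dp_q_29 j u = true) : Gd g H Lt.q u := by
  unfold dp_q_29 at h
  rcases brec_true h with h | h
  · exact dp_q_14_s hy j u hu h
  · exact dp_q_28_s hy j u hu h
theorem dp_q_30_s (hy : Hy g H)
    (j u : ℕ) (hu : u < M) (h : dp_q_30 j u = true) : Gd g H Lt.q u := by
  unfold dp_q_30 at h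
  rcases brec_true h with h | h
  · exact dp_q_7_s hy j u hu h
  · exact dp_q_29_s hy j u hu h
theorem dp_q_31_s (hy : Hy g H)
    (j u : ℕ) (hu : u < M) (h : dp_q_31 j u = true) : Gd g H Lt.q u := by
  unfold dp_q_31 at h
  rcases brec_true h with h | h
  · exact dp_q_0_s hy j u hu h
  · exact dp_q_30_s hy j u hu h
theorem snd_q (hy : Hy g H)
    (j u : ℕ) (hu : u < M) (h : disp_q j u = true) : Gd g H Lt.q u := by
  unfold disp_q at h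
  rcases brec_true h with h | h
  · rcases brec_true h with h | h
    · exact lF1_good (T := T) (x := Lt.q) hM0 .qi (hat (rf_14 hy) 1 rfl) h
    · exact lPar_good (T := T) (x := Lt.q) (x' := Lt.qi) (by decide) rfl (ivt hy _ _ rfl) h
  · rcases brec_true h with h | h
    · rcases brec_true h with h | h
      · exact lDef_good (T := T) (x := Lt.q) (by decide) rfl h
      · rcases brec_true h with h | h
        · exact lF3_good (T := T) (x := Lt.q) hM0 .z .qi .zi (hat (rb_1 hy) 1 rfl) h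
        · exact lF3_good (T := T) (x := Lt.q) hM0 .zi .qi .z (hat (rf_1 hy) 2 rfl) h
    · exact dp_q_31_s hy j u hu h
theorem snc_q (hy : Hy g H)
    (j u : ℕ) (hu : u < M) (h : chk_q j u = true) : (T Lt.q u < A ∧ Gd g H Lt.q u) ∨ (A ≤ T Lt.q u ∧ MG u < A) := by
  unfold chk_q at h
  cases hb : Nat.ble A (T_q u) with
  | true => rw [hb] at h; exact Or.inr ⟨le_of_ble hb, le_of_ble h⟩
  | false => rw [hb] at h; exact Or.inl ⟨lt_of_ble_false hb, snd_q hy j u hu h⟩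
theorem dp_qi_0_s (hy : Hy g H)
    (j u : ℕ) (hu : u < M) (h : dp_qi_0 j u = true) : Gd g H Lt.qi u := by
  unfold dp_qi_0 at h
  rcases brec_true h with h | h
  · exact lS_good (T := T) (x := Lt.qi) hM0 hu [Lt.q] (hat (rf_14 hy) 0 rfl) h
  · exact lS_good (T := T) (x := Lt.qi) hM0 hu [Lt.pi, Lt.q, Lt.p, Lt.qi, Lt.qi, Lt.yi, Lt.p, Lt.q, Lt.pi, Lt.qi] (hat (rf_9 hy) 5 rfl) h
theorem dp_qi_1_s (hy : Hy g H)
    (j u : ℕ) (hu : u < M) (h : dp_qi_1 j u = true) : Gd g H Lt.qi u := by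
  unfold dp_qi_1 at h
  rcases brec_true h with h | h
  · exact lS_good (T := T) (x := Lt.qi) hM0 hu [Lt.p, Lt.q, Lt.p, Lt.p, Lt.qi, Lt.p, Lt.q, Lt.pi, Lt.pi] (hat (rf_7 hy) 4 rfl) h
  · exact lS_good (T := T) (x := Lt.qi) hM0 hu [Lt.pi, Lt.q, Lt.p, Lt.p, Lt.qi, Lt.pi, Lt.q, Lt.pi, Lt.pi] (hat (rb_7 hy) 5 rfl) h
theorem dp_qi_2_s (hy : Hy g H)
    (j u : ℕ) (hu : u < M) (h : dp_qi_2 j u = true) : Gd g H Lt.qi u := by
  unfold dp_qi_2 at h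
  rcases brec_true h with h | h
  · exact lS_good (T := T) (x := Lt.qi) hM0 hu [Lt.qi, Lt.p, Lt.qi, Lt.qi, Lt.p, Lt.qi, Lt.qi, Lt.zi, Lt.p] (hat (rf_8 hy) 2 rfl) h
  · exact lF_good (T := T) (x := Lt.qi) hM0 [Lt.p, Lt.qi, Lt.qi, Lt.zi, Lt.p, Lt.qi, Lt.qi, Lt.p, Lt.qi] (hat (rf_8 hy) 6 rfl) h
theorem dp_qi_3_s (hy : Hy g H)
    (j u : ℕ) (hu : u < M) (h : dp_qi_3 j u = true) : Gd g H Lt.qi u := by
  unfold dp_qi_3 at h
  rcases brec_true h with h | h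
  · exact lS_good (T := T) (x := Lt.qi) hM0 hu [Lt.p, Lt.qi, Lt.qi, Lt.zi, Lt.p, Lt.qi, Lt.qi, Lt.p, Lt.qi] (hat (rf_8 hy) 6 rfl) h
  · exact dp_qi_2_s hy j u hu h
theorem dp_qi_4_s (hy : Hy g H)
    (j u : ℕ) (hu : u < M) (h : dp_qi_4 j u = true) : Gd g H Lt.qi u := by
  unfold dp_qi_4 at h
  rcases brec_true h with h | h
  · exact dp_qi_1_s hy j u hu h
  · exact dp_qi_3_s hy j u hu h
theorem dp_qi_5_s (hy : Hy g H)
    (j u : ℕ) (hu : u < M) (h : dp_qi_5 j u = true) : Gd g H Lt.qi u := by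
  unfold dp_qi_5 at h
  rcases brec_true h with h | h
  · exact dp_qi_0_s hy j u hu h
  · exact dp_qi_4_s hy j u hu h
theorem dp_qi_6_s (hy : Hy g H)
    (j u : ℕ) (hu : u < M) (h : dp_qi_6 j u = true) : Gd g H Lt.qi u := by
  unfold dp_qi_6 at h
  rcases brec_true h with h | h
  · exact lS_good (T := T) (x := Lt.qi) hM0 hu [Lt.yi, Lt.q, Lt.y] (hat (rb_4 hy) 3 rfl) h
  · exact lF_good (T := T) (x := Lt.qi) hM0 [Lt.p, Lt.q, Lt.pi, Lt.pi, Lt.qi, Lt.p, Lt.q, Lt.p, Lt.p] (hat (rf_7 hy) 9 rfl) h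
theorem dp_qi_7_s (hy : Hy g H)
    (j u : ℕ) (hu : u < M) (h : dp_qi_7 j u = true) : Gd g H Lt.qi u := by
  unfold dp_qi_7 at h
  rcases brec_true h with h | h
  · exact lS_good (T := T) (x := Lt.qi) hM0 hu [Lt.p, Lt.qi, Lt.qi, Lt.p, Lt.qi, Lt.qi, Lt.zi, Lt.p, Lt.qi] (hat (rf_8 hy) 3 rfl) h
  · exact lF_good (T := T) (x := Lt.qi) hM0 [Lt.qi, Lt.zi, Lt.p, Lt.qi, Lt.qi, Lt.p, Lt.qi, Lt.qi, Lt.p] (hat (rf_8 hy) 8 rfl) h
theorem dp_qi_8_s (hy : Hy g H)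
    (j u : ℕ) (hu : u < M) (h : dp_qi_8 j u = true) : Gd g H Lt.qi u := by
  unfold dp_qi_8 at h
  rcases brec_true h with h | h
  · exact dp_qi_6_s hy j u hu h
  · exact dp_qi_7_s hy j u hu h
theorem dp_qi_9_s (hy : Hy g H)
    (j u : ℕ) (hu : u < M) (h : dp_qi_9 j u = true) : Gd g H Lt.qi u := by
  unfold dp_qi_9 at h
  rcases brec_true h with h | h
  · exact lF_good (T := T) (x := Lt.qi) hM0 [Lt.qi, Lt.p, Lt.qi, Lt.qi, Lt.p, Lt.qi, Lt.qi, Lt.zi, Lt.p] (hat (rf_8 hy) 2 rfl) h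
  · exact lS_good (T := T) (x := Lt.qi) hM0 hu [Lt.qi, Lt.zi, Lt.p, Lt.qi, Lt.qi, Lt.p, Lt.qi, Lt.qi, Lt.p] (hat (rf_8 hy) 8 rfl) h
theorem dp_qi_10_s (hy : Hy g H)
    (j u : ℕ) (hu : u < M) (h : dp_qi_10 j u = true) : Gd g H Lt.qi u := by
  unfold dp_qi_10 at h
  rcases brec_true h with h | h
  · exact lF_good (T := T) (x := Lt.qi) hM0 [Lt.p, Lt.q, Lt.p, Lt.p, Lt.qi, Lt.p, Lt.q, Lt.pi, Lt.pi] (hat (rf_7 hy) 4 rfl) h
  · exact lS_good (T := T) (x := Lt.qi) hM0 hu [Lt.pi, Lt.q, Lt.pi, Lt.pi, Lt.qi, Lt.pi, Lt.q, Lt.p, Lt.p] (hat (rb_7 hy) 0 rfl) h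
theorem dp_qi_11_s (hy : Hy g H)
    (j u : ℕ) (hu : u < M) (h : dp_qi_11 j u = true) : Gd g H Lt.qi u := by
  unfold dp_qi_11 at h
  rcases brec_true h with h | h
  · exact lS_good (T := T) (x := Lt.qi) hM0 hu [Lt.yi, Lt.p, Lt.q, Lt.pi, Lt.qi, Lt.qi, Lt.pi, Lt.q, Lt.p, Lt.qi] (hat (rf_9 hy) 10 rfl) h
  · exact dp_qi_10_s hy j u hu h
theorem dp_qi_12_s (hy : Hy g H)
    (j u : ℕ) (hu : u < M) (h : dp_qi_12 j u = true) : Gd g H Lt.qi u := by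
  unfold dp_qi_12 at h
  rcases brec_true h with h | h
  · exact dp_qi_9_s hy j u hu h
  · exact dp_qi_11_s hy j u hu h
theorem dp_qi_13_s (hy : Hy g H)
    (j u : ℕ) (hu : u < M) (h : dp_qi_13 j u = true) : Gd g H Lt.qi u := by
  unfold dp_qi_13 at h
  rcases brec_true h with h | h
  · exact dp_qi_8_s hy j u hu h
  · exact dp_qi_12_s hy j u hu h
theorem dp_qi_14_s (hy : Hy g H)
    (j u : ℕ) (hu : u < M) (h : dp_qi_14 j u = true) : Gd g H Lt.qi u := by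
  unfold dp_qi_14 at h
  rcases brec_true h with h | h
  · exact lF_good (T := T) (x := Lt.qi) hM0 [Lt.pi, Lt.y, Lt.q, Lt.q, Lt.pi, Lt.qi, Lt.p, Lt.q, Lt.q, Lt.p] (hat (rb_9 hy) 10 rfl) h
  · exact lS_good (T := T) (x := Lt.qi) hM0 hu [Lt.z, Lt.q, Lt.zi] (hat (rf_1 hy) 0 rfl) h
theorem dp_qi_15_s (hy : Hy g H)
    (j u : ℕ) (hu : u < M) (h : dp_qi_15 j u = true) : Gd g H Lt.qi u := by
  unfold dp_qi_15 at h
  rcases brec_true h with h | h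
  · exact lS_good (T := T) (x := Lt.qi) hM0 hu [Lt.qi, Lt.p, Lt.qi, Lt.qi, Lt.zi, Lt.p, Lt.qi, Lt.qi, Lt.p] (hat (rf_8 hy) 5 rfl) h
  · exact dp_qi_14_s hy j u hu h
theorem dp_qi_16_s (hy : Hy g H)
    (j u : ℕ) (hu : u < M) (h : dp_qi_16 j u = true) : Gd g H Lt.qi u := by
  unfold dp_qi_16 at h
  rcases brec_true h with h | h
  · exact lF_good (T := T) (x := Lt.qi) hM0 [Lt.pi, Lt.q, Lt.pi, Lt.qi, Lt.pi, Lt.q, Lt.p, Lt.qi, Lt.p, Lt.q, Lt.p] (hat (rb_10 hy) 8 rfl) h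
  · exact lF_good (T := T) (x := Lt.qi) hM0 [Lt.p, Lt.q, Lt.p, Lt.qi, Lt.pi, Lt.q, Lt.pi, Lt.qi, Lt.pi, Lt.q, Lt.p] (hat (rb_10 hy) 4 rfl) h
theorem dp_qi_17_s (hy : Hy g H)
    (j u : ℕ) (hu : u < M) (h : dp_qi_17 j u = true) : Gd g H Lt.qi u := by
  unfold dp_qi_17 at h
  rcases brec_true h with h | h
  · exact lF_good (T := T) (x := Lt.qi) hM0 [Lt.p, Lt.q, Lt.pi, Lt.qi, Lt.pi, Lt.q, Lt.pi, Lt.qi, Lt.p, Lt.q, Lt.p] (hat (rf_10 hy) 3 rfl) h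
  · exact lF_good (T := T) (x := Lt.qi) hM0 [Lt.qi, Lt.pi, Lt.q, Lt.p, Lt.qi, Lt.qi, Lt.yi, Lt.p, Lt.q, Lt.pi] (hat (rf_9 hy) 4 rfl) h
theorem dp_qi_18_s (hy : Hy g H)
    (j u : ℕ) (hu : u < M) (h : dp_qi_18 j u = true) : Gd g H Lt.qi u := by
  unfold dp_qi_18 at h
  rcases brec_true h with h | h
  · exact dp_qi_16_s hy j u hu h
  · exact dp_qi_17_s hy j u hu h
theorem dp_qi_19_s (hy : Hy g H)
    (j u : ℕ) (hu : u < M) (h : dp_qi_19 j u = true) : Gd g H Lt.qi u := by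
  unfold dp_qi_19 at h
  rcases brec_true h with h | h
  · exact dp_qi_15_s hy j u hu h
  · exact dp_qi_18_s hy j u hu h
theorem dp_qi_20_s (hy : Hy g H)
    (j u : ℕ) (hu : u < M) (h : dp_qi_20 j u = true) : Gd g H Lt.qi u := by
  unfold dp_qi_20 at h
  rcases brec_true h with h | h
  · exact lS_good (T := T) (x := Lt.qi) hM0 hu [Lt.zi, Lt.q, Lt.z] (hat (rb_1 hy) 3 rfl) h
  · exact lF_good (T := T) (x := Lt.qi) hM0 [Lt.pi, Lt.qi, Lt.p, Lt.q, Lt.p, Lt.q, Lt.pi, Lt.q, Lt.q, Lt.p, Lt.qi, Lt.pi, Lt.qi, Lt.qi, Lt.p, Lt.qi, Lt.pi] (hat (rb_11 hy) 17 rfl) h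
theorem dp_qi_21_s (hy : Hy g H)
    (j u : ℕ) (hu : u < M) (h : dp_qi_21 j u = true) : Gd g H Lt.qi u := by
  unfold dp_qi_21 at h
  rcases brec_true h with h | h
  · exact lF_good (T := T) (x := Lt.qi) hM0 [Lt.p, Lt.q, Lt.q, Lt.p, Lt.qi, Lt.pi, Lt.y, Lt.q, Lt.q, Lt.pi] (hat (rb_9 hy) 5 rfl) h
  · exact lS_good (T := T) (x := Lt.qi) hM0 hu [Lt.qi, Lt.yi, Lt.p, Lt.q, Lt.pi, Lt.qi, Lt.qi, Lt.pi, Lt.q, Lt.p] (hat (rf_9 hy) 9 rfl) h
theorem dp_qi_22_s (hy : Hy g H)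
    (j u : ℕ) (hu : u < M) (h : dp_qi_22 j u = true) : Gd g H Lt.qi u := by
  unfold dp_qi_22 at h
  rcases brec_true h with h | h
  · exact dp_qi_20_s hy j u hu h
  · exact dp_qi_21_s hy j u hu h
theorem dp_qi_23_s (hy : Hy g H)
    (j u : ℕ) (hu : u < M) (h : dp_qi_23 j u = true) : Gd g H Lt.qi u := by
  unfold dp_qi_23 at h
  rcases brec_true h with h | h
  · exact lF_good (T := T) (x := Lt.qi) hM0 [Lt.pi, Lt.q, Lt.pi, Lt.pi, Lt.qi, Lt.pi, Lt.q, Lt.p, Lt.p] (hat (rb_7 hy) 0 rfl) h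
  · exact lS_good (T := T) (x := Lt.qi) hM0 hu [Lt.qi, Lt.pi, Lt.q, Lt.p, Lt.qi, Lt.qi, Lt.yi, Lt.p, Lt.q, Lt.pi] (hat (rf_9 hy) 4 rfl) h
theorem dp_qi_24_s (hy : Hy g H)
    (j u : ℕ) (hu : u < M) (h : dp_qi_24 j u = true) : Gd g H Lt.qi u := by
  unfold dp_qi_24 at h
  rcases brec_true h with h | h
  · exact lS_good (T := T) (x := Lt.qi) hM0 hu [Lt.p, Lt.q, Lt.pi, Lt.pi, Lt.qi, Lt.p, Lt.q, Lt.p, Lt.p] (hat (rf_7 hy) 9 rfl) h
  · exact lF_good (T := T) (x := Lt.qi) hM0 [Lt.p, Lt.qi, Lt.qi, Lt.p, Lt.qi, Lt.qi, Lt.zi, Lt.p, Lt.qi] (hat (rf_8 hy) 3 rfl) h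
theorem dp_qi_25_s (hy : Hy g H)
    (j u : ℕ) (hu : u < M) (h : dp_qi_25 j u = true) : Gd g H Lt.qi u := by
  unfold dp_qi_25 at h
  rcases brec_true h with h | h
  · exact lF_good (T := T) (x := Lt.qi) hM0 [Lt.pi, Lt.q, Lt.p, Lt.p, Lt.qi, Lt.pi, Lt.q, Lt.pi, Lt.pi] (hat (rb_7 hy) 5 rfl) h
  · exact dp_qi_24_s hy j u hu h
theorem dp_qi_26_s (hy : Hy g H)
    (j u : ℕ) (hu : u < M) (h : dp_qi_26 j u = true) : Gd g H Lt.qi u := by
  unfold dp_qi_26 at h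
  rcases brec_true h with h | h
  · exact dp_qi_23_s hy j u hu h
  · exact dp_qi_25_s hy j u hu h
theorem dp_qi_27_s (hy : Hy g H)
    (j u : ℕ) (hu : u < M) (h : dp_qi_27 j u = true) : Gd g H Lt.qi u := by
  unfold dp_qi_27 at h
  rcases brec_true h with h | h
  · exact dp_qi_22_s hy j u hu h
  · exact dp_qi_26_s hy j u hu h
theorem dp_qi_28_s (hy : Hy g H)
    (j u : ℕ) (hu : u < M) (h : dp_qi_28 j u = true) : Gd g H Lt.qi u := by
  unfold dp_qi_28 at h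
  rcases brec_true h with h | h
  · exact dp_qi_19_s hy j u hu h
  · exact dp_qi_27_s hy j u hu h
theorem dp_qi_29_s (hy : Hy g H)
    (j u : ℕ) (hu : u < M) (h : dp_qi_29 j u = true) : Gd g H Lt.qi u := by
  unfold dp_qi_29 at h
  rcases brec_true h with h | h
  · exact dp_qi_13_s hy j u hu h
  · exact dp_qi_28_s hy j u hu h
theorem dp_qi_30_s (hy : Hy g H)
    (j u : ℕ) (hu : u < M) (h : dp_qi_30 j u = true) : Gd g H Lt.qi u := by
  unfold dp_qi_30 at h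
  rcases brec_true h with h | h
  · exact dp_qi_5_s hy j u hu h
  · exact dp_qi_29_s hy j u hu h
theorem dp_qi_31_s (hy : Hy g H)
    (j u : ℕ) (hu : u < M) (h : dp_qi_31 j u = true) : Gd g H Lt.qi u := by
  unfold dp_qi_31 at h
  rcases brec_true h with h | h
  · rcases brec_true h with h | h
    · exact lF3_good (T := T) (x := Lt.qi) hM0 .y .q .yi (hat (rf_4 hy) 0 rfl) h
    · exact lF3_good (T := T) (x := Lt.qi) hM0 .yi .q .y (hat (rb_4 hy) 3 rfl) h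
  · exact dp_qi_30_s hy j u hu h
theorem snd_qi (hy : Hy g H)
    (j u : ℕ) (hu : u < M) (h : disp_qi j u = true) : Gd g H Lt.qi u := by
  unfold disp_qi at h
  rcases brec_true h with h | h
  · rcases brec_true h with h | h
    · exact lF1_good (T := T) (x := Lt.qi) hM0 .q (hat (rf_14 hy) 0 rfl) h
    · exact lDef_good (T := T) (x := Lt.qi) (by decide) rfl h
  · rcases brec_true h with h | h
    · rcases brec_true h with h | h
      · exact lPar_good (T := T) (x := Lt.qi) (x' := Lt.q) (by decide) rfl (ivt hy _ _ rfl) h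
      · rcases brec_true h with h | h
        · exact lF3_good (T := T) (x := Lt.qi) hM0 .z .q .zi (hat (rf_1 hy) 0 rfl) h
        · exact lF3_good (T := T) (x := Lt.qi) hM0 .zi .q .z (hat (rb_1 hy) 3 rfl) h
    · exact dp_qi_31_s hy j u hu h
theorem snc_qi (hy : Hy g H)
    (j u : ℕ) (hu : u < M) (h : chk_qi j u = true) : (T Lt.qi u < A ∧ Gd g H Lt.qi u) ∨ (A ≤ T Lt.qi u ∧ MG u < A) := by
  unfold chk_qi at h
  cases hb : Nat.ble A (T_qi u) with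
  | true => rw [hb] at h; exact Or.inr ⟨le_of_ble hb, le_of_ble h⟩
  | false => rw [hb] at h; exact Or.inl ⟨lt_of_ble_false hb, snd_qi hy j u hu h⟩
theorem dp_z_0_s (hy : Hy g H)
    (j u : ℕ) (hu : u < M) (h : dp_z_0 j u = true) : Gd g H Lt.z u := by
  unfold dp_z_0 at h
  rcases brec_true h with h | h
  · exact lF3_good (T := T) (x := Lt.z) hM0 .p .zi .pi (hat (rf_0 hy) 1 rfl) h
  · exact lS_good (T := T) (x := Lt.z) hM0 hu [Lt.zi] (hat (rf_16 hy) 1 rfl) h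
theorem dp_z_1_s (hy : Hy g H)
    (j u : ℕ) (hu : u < M) (h : dp_z_1 j u = true) : Gd g H Lt.z u := by
  unfold dp_z_1 at h
  rcases brec_true h with h | h
  · exact lF3_good (T := T) (x := Lt.z) hM0 .qi .zi .q (hat (rb_1 hy) 2 rfl) h
  · exact dp_z_0_s hy j u hu h
theorem dp_z_2_s (hy : Hy g H)
    (j u : ℕ) (hu : u < M) (h : dp_z_2 j u = true) : Gd g H Lt.z u := by
  unfold dp_z_2 at h
  rcases brec_true h with h | h
  · exact lF3_good (T := T) (x := Lt.z) hM0 .y .zi .yi (hat (rf_2 hy) 1 rfl) h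
  · exact lF3_good (T := T) (x := Lt.z) hM0 .q .zi .qi (hat (rf_1 hy) 1 rfl) h
theorem dp_z_3_s (hy : Hy g H)
    (j u : ℕ) (hu : u < M) (h : dp_z_3 j u = true) : Gd g H Lt.z u := by
  unfold dp_z_3 at h
  rcases brec_true h with h | h
  · exact lS_good (T := T) (x := Lt.z) hM0 hu [Lt.pi, Lt.zi, Lt.p] (hat (rb_0 hy) 2 rfl) h
  · exact dp_z_2_s hy j u hu h
theorem dp_z_4_s (hy : Hy g H)
    (j u : ℕ) (hu : u < M) (h : dp_z_4 j u = true) : Gd g H Lt.z u := by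
  unfold dp_z_4 at h
  rcases brec_true h with h | h
  · exact lF3_good (T := T) (x := Lt.z) hM0 .yi .zi .y (hat (rb_2 hy) 2 rfl) h
  · exact lS_good (T := T) (x := Lt.z) hM0 hu [Lt.q, Lt.zi, Lt.qi] (hat (rf_1 hy) 1 rfl) h
theorem dp_z_5_s (hy : Hy g H)
    (j u : ℕ) (hu : u < M) (h : dp_z_5 j u = true) : Gd g H Lt.z u := by
  unfold dp_z_5 at h
  rcases brec_true h with h | h
  · exact lS_good (T := T) (x := Lt.z) hM0 hu [Lt.q, Lt.q, Lt.pi, Lt.q, Lt.q, Lt.pi, Lt.q, Lt.q, Lt.pi] (hat (rb_8 hy) 1 rfl) h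
  · exact lS_good (T := T) (x := Lt.z) hM0 hu [Lt.p, Lt.zi, Lt.pi] (hat (rf_0 hy) 1 rfl) h
theorem dp_z_6_s (hy : Hy g H)
    (j u : ℕ) (hu : u < M) (h : dp_z_6 j u = true) : Gd g H Lt.z u := by
  unfold dp_z_6 at h
  rcases brec_true h with h | h
  · exact lF_good (T := T) (x := Lt.z) hM0 [Lt.z, Lt.z, Lt.z, Lt.z, Lt.z, Lt.z, Lt.z, Lt.z] (hat (rf_5 hy) 0 rfl) h
  · exact dp_z_5_s hy j u hu h
theorem dp_z_7_s (hy : Hy g H)
    (j u : ℕ) (hu : u < M) (h : dp_z_7 j u = true) : Gd g H Lt.z u := by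
  unfold dp_z_7 at h
  rcases brec_true h with h | h
  · exact lF_good (T := T) (x := Lt.z) hM0 [Lt.q, Lt.q, Lt.pi, Lt.q, Lt.q, Lt.pi, Lt.q, Lt.q, Lt.pi] (hat (rb_8 hy) 1 rfl) h
  · exact dp_z_6_s hy j u hu h
theorem dp_z_8_s (hy : Hy g H)
    (j u : ℕ) (hu : u < M) (h : dp_z_8 j u = true) : Gd g H Lt.z u := by
  unfold dp_z_8 at h
  rcases brec_true h with h | h
  · exact lS_good (T := T) (x := Lt.z) hM0 hu [Lt.qi, Lt.zi, Lt.q] (hat (rb_1 hy) 2 rfl) h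
  · exact dp_z_7_s hy j u hu h
theorem dp_z_9_s (hy : Hy g H)
    (j u : ℕ) (hu : u < M) (h : dp_z_9 j u = true) : Gd g H Lt.z u := by
  unfold dp_z_9 at h
  rcases brec_true h with h | h
  · exact dp_z_4_s hy j u hu h
  · exact dp_z_8_s hy j u hu h
theorem dp_z_10_s (hy : Hy g H)
    (j u : ℕ) (hu : u < M) (h : dp_z_10 j u = true) : Gd g H Lt.z u := by
  unfold dp_z_10 at h
  rcases brec_true h with h | h
  · exact dp_z_3_s hy j u hu h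
  · exact dp_z_9_s hy j u hu h
theorem dp_z_11_s (hy : Hy g H)
    (j u : ℕ) (hu : u < M) (h : dp_z_11 j u = true) : Gd g H Lt.z u := by
  unfold dp_z_11 at h
  rcases brec_true h with h | h
  · exact dp_z_1_s hy j u hu h
  · exact dp_z_10_s hy j u hu h
theorem dp_z_12_s (hy : Hy g H)
    (j u : ℕ) (hu : u < M) (h : dp_z_12 j u = true) : Gd g H Lt.z u := by
  unfold dp_z_12 at h
  rcases brec_true h with h | h
  · rcases brec_true h with h | h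
    · exact lF1_good (T := T) (x := Lt.z) hM0 .zi (hat (rf_16 hy) 1 rfl) h
    · exact lF3_good (T := T) (x := Lt.z) hM0 .pi .zi .p (hat (rb_0 hy) 2 rfl) h
  · exact dp_z_11_s hy j u hu h
theorem snd_z (hy : Hy g H)
    (j u : ℕ) (hu : u < M) (h : disp_z j u = true) : Gd g H Lt.z u := by
  unfold disp_z at h
  rcases brec_true h with h | h
  · exact lPar_good (T := T) (x := Lt.z) (x' := Lt.zi) (by decide) rfl (ivt hy _ _ rfl) h
  · rcases brec_true h with h | h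
    · exact lDef_good (T := T) (x := Lt.z) (by decide) rfl h
    · exact dp_z_12_s hy j u hu h
theorem snc_z (hy : Hy g H)
    (j u : ℕ) (hu : u < M) (h : chk_z j u = true) : (T Lt.z u < A ∧ Gd g H Lt.z u) ∨ (A ≤ T Lt.z u ∧ MG u < A) := by
  unfold chk_z at h
  cases hb : Nat.ble A (T_z u) with
  | true => rw [hb] at h; exact Or.inr ⟨le_of_ble hb, le_of_ble h⟩
  | false => rw [hb] at h; exact Or.inl ⟨lt_of_ble_false hb, snd_z hy j u hu h⟩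
theorem dp_zi_0_s (hy : Hy g H)
    (j u : ℕ) (hu : u < M) (h : dp_zi_0 j u = true) : Gd g H Lt.zi u := by
  unfold dp_zi_0 at h
  rcases brec_true h with h | h
  · exact lS_good (T := T) (x := Lt.zi) hM0 hu [Lt.p, Lt.z, Lt.pi] (hat (rb_0 hy) 0 rfl) h
  · exact lF3_good (T := T) (x := Lt.zi) hM0 .qi .z .q (hat (rf_1 hy) 3 rfl) h
theorem dp_zi_1_s (hy : Hy g H)
    (j u : ℕ) (hu : u < M) (h : dp_zi_1 j u = true) : Gd g H Lt.zi u := by
  unfold dp_zi_1 at h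
  rcases brec_true h with h | h
  · exact lS_good (T := T) (x := Lt.zi) hM0 hu [Lt.pi, Lt.z, Lt.p] (hat (rf_0 hy) 3 rfl) h
  · exact dp_zi_0_s hy j u hu h
theorem dp_zi_2_s (hy : Hy g H)
    (j u : ℕ) (hu : u < M) (h : dp_zi_2 j u = true) : Gd g H Lt.zi u := by
  unfold dp_zi_2 at h
  rcases brec_true h with h | h
  · exact lS_good (T := T) (x := Lt.zi) hM0 hu [Lt.z] (hat (rf_16 hy) 0 rfl) h
  · exact lS_good (T := T) (x := Lt.zi) hM0 hu [Lt.qi, Lt.z, Lt.q] (hat (rf_1 hy) 3 rfl) h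
theorem dp_zi_3_s (hy : Hy g H)
    (j u : ℕ) (hu : u < M) (h : dp_zi_3 j u = true) : Gd g H Lt.zi u := by
  unfold dp_zi_3 at h
  rcases brec_true h with h | h
  · exact lF3_good (T := T) (x := Lt.zi) hM0 .yi .z .y (hat (rf_2 hy) 3 rfl) h
  · exact lS_good (T := T) (x := Lt.zi) hM0 hu [Lt.q, Lt.z, Lt.qi] (hat (rb_1 hy) 0 rfl) h
theorem dp_zi_4_s (hy : Hy g H)
    (j u : ℕ) (hu : u < M) (h : dp_zi_4 j u = true) : Gd g H Lt.zi u := by
  unfold dp_zi_4 at h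
  rcases brec_true h with h | h
  · exact lF3_good (T := T) (x := Lt.zi) hM0 .p .z .pi (hat (rb_0 hy) 0 rfl) h
  · exact lF3_good (T := T) (x := Lt.zi) hM0 .q .z .qi (hat (rb_1 hy) 0 rfl) h
theorem dp_zi_5_s (hy : Hy g H)
    (j u : ℕ) (hu : u < M) (h : dp_zi_5 j u = true) : Gd g H Lt.zi u := by
  unfold dp_zi_5 at h
  rcases brec_true h with h | h
  · exact lF3_good (T := T) (x := Lt.zi) hM0 .y .z .yi (hat (rb_2 hy) 0 rfl) h
  · exact dp_zi_4_s hy j u hu h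
theorem dp_zi_6_s (hy : Hy g H)
    (j u : ℕ) (hu : u < M) (h : dp_zi_6 j u = true) : Gd g H Lt.zi u := by
  unfold dp_zi_6 at h
  rcases brec_true h with h | h
  · exact dp_zi_3_s hy j u hu h
  · exact dp_zi_5_s hy j u hu h
theorem dp_zi_7_s (hy : Hy g H)
    (j u : ℕ) (hu : u < M) (h : dp_zi_7 j u = true) : Gd g H Lt.zi u := by
  unfold dp_zi_7 at h
  rcases brec_true h with h | h
  · exact dp_zi_2_s hy j u hu h
  · exact dp_zi_6_s hy j u hu h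
theorem dp_zi_8_s (hy : Hy g H)
    (j u : ℕ) (hu : u < M) (h : dp_zi_8 j u = true) : Gd g H Lt.zi u := by
  unfold dp_zi_8 at h
  rcases brec_true h with h | h
  · exact dp_zi_1_s hy j u hu h
  · exact dp_zi_7_s hy j u hu h
theorem dp_zi_9_s (hy : Hy g H)
    (j u : ℕ) (hu : u < M) (h : dp_zi_9 j u = true) : Gd g H Lt.zi u := by
  unfold dp_zi_9 at h
  rcases brec_true h with h | h
  · rcases brec_true h with h | h
    · exact lF1_good (T := T) (x := Lt.zi) hM0 .z (hat (rf_16 hy) 0 rfl) h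
    · exact lF3_good (T := T) (x := Lt.zi) hM0 .pi .z .p (hat (rf_0 hy) 3 rfl) h
  · exact dp_zi_8_s hy j u hu h
theorem snd_zi (hy : Hy g H)
    (j u : ℕ) (hu : u < M) (h : disp_zi j u = true) : Gd g H Lt.zi u := by
  unfold disp_zi at h
  rcases brec_true h with h | h
  · exact lDef_good (T := T) (x := Lt.zi) (by decide) rfl h
  · rcases brec_true h with h | h
    · exact lPar_good (T := T) (x := Lt.zi) (x' := Lt.z) (by decide) rfl (ivt hy _ _ rfl) h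
    · exact dp_zi_9_s hy j u hu h
theorem snc_zi (hy : Hy g H)
    (j u : ℕ) (hu : u < M) (h : chk_zi j u = true) : (T Lt.zi u < A ∧ Gd g H Lt.zi u) ∨ (A ≤ T Lt.zi u ∧ MG u < A) := by
  unfold chk_zi at h
  cases hb : Nat.ble A (T_zi u) with
  | true => rw [hb] at h; exact Or.inr ⟨le_of_ble hb, le_of_ble h⟩
  | false => rw [hb] at h; exact Or.inl ⟨lt_of_ble_false hb, snd_zi hy j u hu h⟩
theorem dp_y_0_s (hy : Hy g H)
    (j u : ℕ) (hu : u < M) (h : dp_y_0 j u = true) : Gd g H Lt.y u := by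
  unfold dp_y_0 at h
  rcases brec_true h with h | h
  · exact lS_good (T := T) (x := Lt.y) hM0 hu [Lt.p, Lt.yi, Lt.pi] (hat (rf_3 hy) 1 rfl) h
  · exact lS_good (T := T) (x := Lt.y) hM0 hu [Lt.q, Lt.yi, Lt.qi] (hat (rf_4 hy) 1 rfl) h
theorem dp_y_1_s (hy : Hy g H)
    (j u : ℕ) (hu : u < M) (h : dp_y_1 j u = true) : Gd g H Lt.y u := by
  unfold dp_y_1 at h
  rcases brec_true h with h | h
  · exact lS_good (T := T) (x := Lt.y) hM0 hu [Lt.pi, Lt.yi, Lt.p] (hat (rb_3 hy) 2 rfl) h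
  · exact dp_y_0_s hy j u hu h
theorem dp_y_2_s (hy : Hy g H)
    (j u : ℕ) (hu : u < M) (h : dp_y_2 j u = true) : Gd g H Lt.y u := by
  unfold dp_y_2 at h
  rcases brec_true h with h | h
  · exact lS_good (T := T) (x := Lt.y) hM0 hu [Lt.qi, Lt.yi, Lt.q] (hat (rb_4 hy) 2 rfl) h
  · exact lF3_good (T := T) (x := Lt.y) hM0 .p .yi .pi (hat (rf_3 hy) 1 rfl) h
theorem dp_y_3_s (hy : Hy g H)
    (j u : ℕ) (hu : u < M) (h : dp_y_3 j u = true) : Gd g H Lt.y u := by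
  unfold dp_y_3 at h
  rcases brec_true h with h | h
  · exact lF3_good (T := T) (x := Lt.y) hM0 .zi .yi .z (hat (rf_2 hy) 2 rfl) h
  · exact lF_good (T := T) (x := Lt.y) hM0 [Lt.y, Lt.y, Lt.y, Lt.y, Lt.y, Lt.y, Lt.y, Lt.y] (hat (rf_6 hy) 0 rfl) h
theorem dp_y_4_s (hy : Hy g H)
    (j u : ℕ) (hu : u < M) (h : dp_y_4 j u = true) : Gd g H Lt.y u := by
  unfold dp_y_4 at h
  rcases brec_true h with h | h
  · exact lF3_good (T := T) (x := Lt.y) hM0 .q .yi .qi (hat (rf_4 hy) 1 rfl) h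
  · exact dp_y_3_s hy j u hu h
theorem dp_y_5_s (hy : Hy g H)
    (j u : ℕ) (hu : u < M) (h : dp_y_5 j u = true) : Gd g H Lt.y u := by
  unfold dp_y_5 at h
  rcases brec_true h with h | h
  · exact lS_good (T := T) (x := Lt.y) hM0 hu [Lt.yi] (hat (rf_18 hy) 1 rfl) h
  · exact dp_y_4_s hy j u hu h
theorem dp_y_6_s (hy : Hy g H)
    (j u : ℕ) (hu : u < M) (h : dp_y_6 j u = true) : Gd g H Lt.y u := by
  unfold dp_y_6 at h
  rcases brec_true h with h | h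
  · exact lF3_good (T := T) (x := Lt.y) hM0 .qi .yi .q (hat (rb_4 hy) 2 rfl) h
  · exact dp_y_5_s hy j u hu h
theorem dp_y_7_s (hy : Hy g H)
    (j u : ℕ) (hu : u < M) (h : dp_y_7 j u = true) : Gd g H Lt.y u := by
  unfold dp_y_7 at h
  rcases brec_true h with h | h
  · exact dp_y_2_s hy j u hu h
  · exact dp_y_6_s hy j u hu h
theorem dp_y_8_s (hy : Hy g H)
    (j u : ℕ) (hu : u < M) (h : dp_y_8 j u = true) : Gd g H Lt.y u := by
  unfold dp_y_8 at h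
  rcases brec_true h with h | h
  · exact dp_y_1_s hy j u hu h
  · exact dp_y_7_s hy j u hu h
theorem dp_y_9_s (hy : Hy g H)
    (j u : ℕ) (hu : u < M) (h : dp_y_9 j u = true) : Gd g H Lt.y u := by
  unfold dp_y_9 at h
  rcases brec_true h with h | h
  · rcases brec_true h with h | h
    · exact lF1_good (T := T) (x := Lt.y) hM0 .yi (hat (rf_18 hy) 1 rfl) h
    · exact lF3_good (T := T) (x := Lt.y) hM0 .pi .yi .p (hat (rb_3 hy) 2 rfl) h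
  · exact dp_y_8_s hy j u hu h
theorem snd_y (hy : Hy g H)
    (j u : ℕ) (hu : u < M) (h : disp_y j u = true) : Gd g H Lt.y u := by
  unfold disp_y at h
  rcases brec_true h with h | h
  · rcases brec_true h with h | h
    · exact lDef_good (T := T) (x := Lt.y) (by decide) rfl h
    · exact lPar_good (T := T) (x := Lt.y) (x' := Lt.yi) (by decide) rfl (ivt hy _ _ rfl) h
  · exact dp_y_9_s hy j u hu h
theorem snc_y (hy : Hy g H)
    (j u : ℕ) (hu : u < M) (h : chk_y j u = true) : (T Lt.y u < A ∧ Gd g H Lt.y u) ∨ (A ≤ T Lt.y u ∧ MG u < A) := by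
  unfold chk_y at h
  cases hb : Nat.ble A (T_y u) with
  | true => rw [hb] at h; exact Or.inr ⟨le_of_ble hb, le_of_ble h⟩
  | false => rw [hb] at h; exact Or.inl ⟨lt_of_ble_false hb, snd_y hy j u hu h⟩
theorem dp_yi_0_s (hy : Hy g H)
    (j u : ℕ) (hu : u < M) (h : dp_yi_0 j u = true) : Gd g H Lt.yi u := by
  unfold dp_yi_0 at h
  rcases brec_true h with h | h
  · exact lF3_good (T := T) (x := Lt.yi) hM0 .pi .y .p (hat (rf_3 hy) 3 rfl) h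
  · exact lF3_good (T := T) (x := Lt.yi) hM0 .q .y .qi (hat (rb_4 hy) 0 rfl) h
theorem dp_yi_1_s (hy : Hy g H)
    (j u : ℕ) (hu : u < M) (h : dp_yi_1 j u = true) : Gd g H Lt.yi u := by
  unfold dp_yi_1 at h
  rcases brec_true h with h | h
  · exact lS_good (T := T) (x := Lt.yi) hM0 hu [Lt.qi, Lt.y, Lt.q] (hat (rf_4 hy) 3 rfl) h
  · exact lS_good (T := T) (x := Lt.yi) hM0 hu [Lt.pi, Lt.y, Lt.p] (hat (rf_3 hy) 3 rfl) h
theorem dp_yi_2_s (hy : Hy g H)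
    (j u : ℕ) (hu : u < M) (h : dp_yi_2 j u = true) : Gd g H Lt.yi u := by
  unfold dp_yi_2 at h
  rcases brec_true h with h | h
  · exact lS_good (T := T) (x := Lt.yi) hM0 hu [Lt.y] (hat (rf_18 hy) 0 rfl) h
  · exact dp_yi_1_s hy j u hu h
theorem dp_yi_3_s (hy : Hy g H)
    (j u : ℕ) (hu : u < M) (h : dp_yi_3 j u = true) : Gd g H Lt.yi u := by
  unfold dp_yi_3 at h
  rcases brec_true h with h | h
  · exact lS_good (T := T) (x := Lt.yi) hM0 hu [Lt.q, Lt.y, Lt.qi] (hat (rb_4 hy) 0 rfl) h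
  · exact dp_yi_2_s hy j u hu h
theorem dp_yi_4_s (hy : Hy g H)
    (j u : ℕ) (hu : u < M) (h : dp_yi_4 j u = true) : Gd g H Lt.yi u := by
  unfold dp_yi_4 at h
  rcases brec_true h with h | h
  · exact lF3_good (T := T) (x := Lt.yi) hM0 .qi .y .q (hat (rf_4 hy) 3 rfl) h
  · exact dp_yi_3_s hy j u hu h
theorem dp_yi_5_s (hy : Hy g H)
    (j u : ℕ) (hu : u < M) (h : dp_yi_5 j u = true) : Gd g H Lt.yi u := by
  unfold dp_yi_5 at h
  rcases brec_true h with h | h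
  · exact lF3_good (T := T) (x := Lt.yi) hM0 .p .y .pi (hat (rb_3 hy) 0 rfl) h
  · exact dp_yi_4_s hy j u hu h
theorem dp_yi_6_s (hy : Hy g H)
    (j u : ℕ) (hu : u < M) (h : dp_yi_6 j u = true) : Gd g H Lt.yi u := by
  unfold dp_yi_6 at h
  rcases brec_true h with h | h
  · exact lF1_good (T := T) (x := Lt.yi) hM0 .y (hat (rf_18 hy) 0 rfl) h
  · rcases brec_true h with h | h
    · exact dp_yi_0_s hy j u hu h
    · exact dp_yi_5_s hy j u hu h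
theorem snd_yi (hy : Hy g H)
    (j u : ℕ) (hu : u < M) (h : disp_yi j u = true) : Gd g H Lt.yi u := by
  unfold disp_yi at h
  rcases brec_true h with h | h
  · rcases brec_true h with h | h
    · exact lPar_good (T := T) (x := Lt.yi) (x' := Lt.y) (by decide) rfl (ivt hy _ _ rfl) h
    · exact lDef_good (T := T) (x := Lt.yi) (by decide) rfl h
  · exact dp_yi_6_s hy j u hu h
theorem snc_yi (hy : Hy g H)
    (j u : ℕ) (hu : u < M) (h : chk_yi j u = true) : (T Lt.yi u < A ∧ Gd g H Lt.yi u) ∨ (A ≤ T Lt.yi u ∧ MG u < A) := by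
  unfold chk_yi at h
  cases hb : Nat.ble A (T_yi u) with
  | true => rw [hb] at h; exact Or.inr ⟨le_of_ble hb, le_of_ble h⟩
  | false => rw [hb] at h; exact Or.inl ⟨lt_of_ble_false hb, snd_yi hy j u hu h⟩
theorem dM_0_s (hy : Hy g H) (j z1 z2 u : ℕ) (h : dM_0 j z1 z2 u = true) : GdM g H u := by
  unfold dM_0 at h
  rcases brec_true h with h | h
  · exact mCo_good (T := T) (y := .qi) hM0 h
  · rcases brec_true h with h | h
    · exact mCo_good (T := T) (y := .p) hM0 h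
    · exact mCo_good (T := T) (y := .q) hM0 h
theorem dM_1_s (hy : Hy g H) (j z1 z2 u : ℕ) (h : dM_1 j z1 z2 u = true) : GdM g H u := by
  unfold dM_1 at h
  rcases brec_true h with h | h
  · exact mCo_good (T := T) (y := .pi) hM0 h
  · exact mCo_good (T := T) (y := .z) hM0 h
theorem dM_2_s (hy : Hy g H) (j z1 z2 u : ℕ) (h : dM_2 j z1 z2 u = true) : GdM g H u := by
  unfold dM_2 at h
  rcases brec_true h with h | h
  · exact mCo_good (T := T) (y := .zi) hM0 h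
  · exact mCo_good (T := T) (y := .y) hM0 h
theorem dM_3_s (hy : Hy g H) (j z1 z2 u : ℕ) (h : dM_3 j z1 z2 u = true) : GdM g H u := by
  unfold dM_3 at h
  rcases brec_true h with h | h
  · exact mCo_good (T := T) (y := .yi) hM0 h
  · rcases brec_true h with h | h
    · rcases brec_true h with h | h
      · exact mRel_good (T := T) hM0 [Lt.qi, Lt.p, Lt.qi, Lt.qi, Lt.zi, Lt.p, Lt.qi] [Lt.q, Lt.pi, Lt.q] (pat hy (rf_8 hy) 5 rfl) h
      · exact mRel_good (T := T) hM0 [Lt.pi, Lt.q, Lt.p, Lt.p, Lt.qi, Lt.pi, Lt.q, Lt.pi] [Lt.q, Lt.p] (pat hy (rb_7 hy) 5 rfl) h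
    · rcases brec_true h with h | h
      · exact mRel_good (T := T) hM0 [Lt.p, Lt.q, Lt.pi, Lt.pi, Lt.qi, Lt.p, Lt.q, Lt.p] [Lt.q, Lt.pi] (pat hy (rf_7 hy) 9 rfl) h
      · rcases brec_true h with h | h
        · exact mRel_good (T := T) hM0 [Lt.pi, Lt.z] [Lt.z, Lt.pi] (pat hy (rf_0 hy) 3 rfl) h
        · exact mRel_good (T := T) hM0 [Lt.q, Lt.q, Lt.pi, Lt.q] [Lt.zi, Lt.p, Lt.qi, Lt.qi, Lt.p, Lt.qi] (pat hy (rb_8 hy) 1 rfl) h
theorem dM_4_s (hy : Hy g H) (j z1 z2 u : ℕ) (h : dM_4 j z1 z2 u = true) : GdM g H u := by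
  unfold dM_4 at h
  rcases brec_true h with h | h
  · rcases brec_true h with h | h
    · rcases brec_true h with h | h
      · exact mRel_good (T := T) hM0 [Lt.qi, Lt.pi, Lt.q, Lt.pi] [Lt.pi, Lt.pi, Lt.qi, Lt.p, Lt.q, Lt.p] (pat hy (rb_7 hy) 9 rfl) h
      · exact mRel_good (T := T) hM0 [Lt.q, Lt.pi, Lt.pi, Lt.qi] [Lt.pi, Lt.q, Lt.pi, Lt.pi, Lt.qi, Lt.pi] (pat hy (rf_7 hy) 0 rfl) h
    · rcases brec_true h with h | h
      · exact mRel_good (T := T) hM0 [Lt.q, Lt.y, Lt.qi] [Lt.y] (pat hy (rb_4 hy) 0 rfl) h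
      · exact mRel_good (T := T) hM0 [Lt.q, Lt.pi, Lt.qi] [Lt.qi, Lt.yi, Lt.p, Lt.q, Lt.pi, Lt.qi, Lt.qi, Lt.pi] (pat hy (rb_9 hy) 2 rfl) h
  · rcases brec_true h with h | h
    · rcases brec_true h with h | h
      · exact mRel_good (T := T) hM0 [Lt.z, Lt.q] [Lt.q, Lt.z] (pat hy (rf_1 hy) 0 rfl) h
      · exact mRel_good (T := T) hM0 [Lt.qi, Lt.p, Lt.q, Lt.p, Lt.p] [Lt.p, Lt.p, Lt.qi, Lt.pi, Lt.q] (pat hy (rf_7 hy) 3 rfl) h
    · rcases brec_true h with h | h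
      · exact mRel_good (T := T) hM0 [Lt.qi, Lt.p, Lt.qi, Lt.qi, Lt.p, Lt.qi, Lt.qi] [Lt.q, Lt.pi, Lt.z] (pat hy (rf_8 hy) 2 rfl) h
      · exact mRel_good (T := T) hM0 [Lt.qi, Lt.pi, Lt.q, Lt.pi, Lt.pi] [Lt.pi, Lt.pi, Lt.qi, Lt.p, Lt.q] (pat hy (rb_7 hy) 9 rfl) h
theorem dM_5_s (hy : Hy g H) (j z1 z2 u : ℕ) (h : dM_5 j z1 z2 u = true) : GdM g H u := by
  unfold dM_5 at h
  rcases brec_true h with h | h
  · rcases brec_true h with h | h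
    · rcases brec_true h with h | h
      · exact mRel_good (T := T) hM0 [Lt.p, Lt.zi] [Lt.zi, Lt.p] (pat hy (rf_0 hy) 1 rfl) h
      · exact mRel_good (T := T) hM0 [Lt.yi, Lt.qi] [Lt.qi, Lt.yi] (pat hy (rf_4 hy) 2 rfl) h
    · rcases brec_true h with h | h
      · exact mRel_good (T := T) hM0 [Lt.p, Lt.y] [Lt.y, Lt.p] (pat hy (rb_3 hy) 0 rfl) h
      · exact mRel_good (T := T) hM0 [Lt.pi, Lt.z, Lt.q, Lt.q, Lt.pi, Lt.q] [Lt.qi, Lt.qi, Lt.p, Lt.qi] (pat hy (rb_8 hy) 9 rfl) h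
  · rcases brec_true h with h | h
    · rcases brec_true h with h | h
      · exact mRel_good (T := T) hM0 [Lt.yi, Lt.p, Lt.q, Lt.pi, Lt.qi, Lt.qi] [Lt.q, Lt.q, Lt.pi, Lt.qi, Lt.p] (pat hy (rf_9 hy) 10 rfl) h
      · exact mRel_good (T := T) hM0 [Lt.y, Lt.q, Lt.q, Lt.pi, Lt.qi, Lt.p, Lt.q, Lt.q] [Lt.p, Lt.q, Lt.pi] (pat hy (rb_9 hy) 0 rfl) h
    · rcases brec_true h with h | h
      · exact mRel_good (T := T) hM0 [Lt.q, Lt.p, Lt.p] [Lt.p, Lt.q, Lt.p, Lt.p, Lt.qi, Lt.p, Lt.q] (pat hy (rb_7 hy) 6 rfl) h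
      · exact mRel_good (T := T) hM0 [Lt.p, Lt.qi, Lt.pi, Lt.q, Lt.pi] [Lt.pi, Lt.qi, Lt.p, Lt.q, Lt.p] (pat hy (rb_7 hy) 8 rfl) h
theorem dM_6_s (hy : Hy g H) (j z1 z2 u : ℕ) (h : dM_6 j z1 z2 u = true) : GdM g H u := by
  unfold dM_6 at h
  rcases brec_true h with h | h
  · exact dM_4_s hy j z1 z2 u h
  · exact dM_5_s hy j z1 z2 u h
theorem dM_7_s (hy : Hy g H) (j z1 z2 u : ℕ) (h : dM_7 j z1 z2 u = true) : GdM g H u := by
  unfold dM_7 at h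
  rcases brec_true h with h | h
  · rcases brec_true h with h | h
    · rcases brec_true h with h | h
      · exact mRel_good (T := T) hM0 [Lt.y, Lt.pi] [Lt.pi, Lt.y] (pat hy (rb_3 hy) 1 rfl) h
      · exact mRel_good (T := T) hM0 [Lt.p, Lt.p, Lt.qi, Lt.pi, Lt.q, Lt.pi, Lt.pi, Lt.qi] [Lt.qi, Lt.p] (pat hy (rb_7 hy) 7 rfl) h
    · rcases brec_true h with h | h
      · exact mRel_good (T := T) hM0 [Lt.qi, Lt.p, Lt.qi, Lt.qi, Lt.p] [Lt.q, Lt.pi, Lt.z, Lt.q, Lt.q] (pat hy (rf_8 hy) 2 rfl) h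
      · exact mRel_good (T := T) hM0 [Lt.qi, Lt.qi, Lt.zi, Lt.p, Lt.qi] [Lt.pi, Lt.q, Lt.q, Lt.pi, Lt.q] (pat hy (rf_8 hy) 7 rfl) h
  · rcases brec_true h with h | h
    · rcases brec_true h with h | h
      · exact mRel_good (T := T) hM0 [Lt.qi, Lt.z, Lt.q] [Lt.z] (pat hy (rf_1 hy) 3 rfl) h
      · exact mRel_good (T := T) hM0 [Lt.q, Lt.p] [Lt.p, Lt.q, Lt.p, Lt.p, Lt.qi, Lt.p, Lt.q, Lt.pi] (pat hy (rb_7 hy) 6 rfl) h
    · rcases brec_true h with h | h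
      · exact mRel_good (T := T) hM0 [Lt.q, Lt.z] [Lt.z, Lt.q] (pat hy (rb_1 hy) 0 rfl) h
      · exact mRel_good (T := T) hM0 [Lt.z, Lt.q, Lt.q, Lt.pi, Lt.q, Lt.q] [Lt.p, Lt.qi, Lt.qi, Lt.p] (pat hy (rb_8 hy) 0 rfl) h
theorem dM_8_s (hy : Hy g H) (j z1 z2 u : ℕ) (h : dM_8 j z1 z2 u = true) : GdM g H u := by
  unfold dM_8 at h
  rcases brec_true h with h | h
  · rcases brec_true h with h | h
    · rcases brec_true h with h | h
      · exact mRel_good (T := T) hM0 [Lt.qi, Lt.p, Lt.qi, Lt.qi, Lt.zi] [Lt.q, Lt.pi, Lt.q, Lt.q, Lt.pi] (pat hy (rf_8 hy) 5 rfl) h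
      · exact mRel_good (T := T) hM0 [Lt.p, Lt.qi, Lt.qi, Lt.p, Lt.qi, Lt.qi, Lt.p, Lt.qi, Lt.qi] [Lt.z] (pat hy (rf_8 hy) 0 rfl) h
    · rcases brec_true h with h | h
      · exact mRel_good (T := T) hM0 [Lt.zi, Lt.q, Lt.z] [Lt.q] (pat hy (rb_1 hy) 3 rfl) h
      · exact mRel_good (T := T) hM0 [Lt.qi] [Lt.p, Lt.p, Lt.qi, Lt.p, Lt.q, Lt.pi, Lt.pi, Lt.qi, Lt.p] (pat hy (rb_7 hy) 4 rfl) h
  · rcases brec_true h with h | h
    · rcases brec_true h with h | h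
      · exact mRel_good (T := T) hM0 [Lt.q, Lt.pi, Lt.pi, Lt.qi, Lt.pi, Lt.q, Lt.p, Lt.p, Lt.qi] [Lt.p] (pat hy (rb_7 hy) 1 rfl) h
      · exact mRel_good (T := T) hM0 [Lt.p, Lt.p, Lt.qi, Lt.p, Lt.q, Lt.pi, Lt.pi, Lt.qi, Lt.p, Lt.q] [] (pat hy (rf_7 hy) 6 rfl) h
    · rcases brec_true h with h | h
      · exact mRel_good (T := T) hM0 [Lt.p, Lt.q, Lt.pi, Lt.pi, Lt.qi] [Lt.q, Lt.pi, Lt.pi, Lt.qi, Lt.pi] (pat hy (rf_7 hy) 9 rfl) h
      · exact mRel_good (T := T) hM0 [Lt.qi, Lt.p, Lt.qi, Lt.qi, Lt.p, Lt.qi] [Lt.q, Lt.pi, Lt.z, Lt.q] (pat hy (rf_8 hy) 2 rfl) h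
theorem dM_9_s (hy : Hy g H) (j z1 z2 u : ℕ) (h : dM_9 j z1 z2 u = true) : GdM g H u := by
  unfold dM_9 at h
  rcases brec_true h with h | h
  · exact dM_7_s hy j z1 z2 u h
  · exact dM_8_s hy j z1 z2 u h
theorem dM_10_s (hy : Hy g H) (j z1 z2 u : ℕ) (h : dM_10 j z1 z2 u = true) : GdM g H u := by
  unfold dM_10 at h
  rcases brec_true h with h | h
  · exact dM_6_s hy j z1 z2 u h
  · exact dM_9_s hy j z1 z2 u h
theorem dM_11_s (hy : Hy g H) (j z1 z2 u : ℕ) (h : dM_11 j z1 z2 u = true) : GdM g H u := by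
  unfold dM_11 at h
  rcases brec_true h with h | h
  · exact dM_3_s hy j z1 z2 u h
  · exact dM_10_s hy j z1 z2 u h
theorem dM_12_s (hy : Hy g H) (j z1 z2 u : ℕ) (h : dM_12 j z1 z2 u = true) : GdM g H u := by
  unfold dM_12 at h
  rcases brec_true h with h | h
  · exact dM_2_s hy j z1 z2 u h
  · exact dM_11_s hy j z1 z2 u h
theorem dM_13_s (hy : Hy g H) (j z1 z2 u : ℕ) (h : dM_13 j z1 z2 u = true) : GdM g H u := by
  unfold dM_13 at h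
  rcases brec_true h with h | h
  · exact dM_1_s hy j z1 z2 u h
  · exact dM_12_s hy j z1 z2 u h
theorem dM_14_s (hy : Hy g H) (j z1 z2 u : ℕ) (h : dM_14 j z1 z2 u = true) : GdM g H u := by
  unfold dM_14 at h
  rcases brec_true h with h | h
  · exact dM_0_s hy j z1 z2 u h
  · exact dM_13_s hy j z1 z2 u h
theorem sndM (hy : Hy g H) (u : ℕ) (h : chkM u = true) :
    MG u < A → MG u % M < u ∧ GdM g H u := by
  intro hA
  unfold chkM at h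
  cases hb : Nat.ble A (MG u) with
  | true => exact absurd (le_of_ble hb) (by omega)
  | false =>
    rw [hb] at h
    obtain ⟨h1, h2⟩ := band_eq_true.1 h
    exact ⟨le_of_ble h1, dM_14_s hy _ _ _ _ h2⟩
theorem sndN (hy : Hy g H)
    (u : ℕ) (hu : u < M) (h : chkP u = true) : (∀ x, (T x u < A ∧ Gd g H x u) ∨ (A ≤ T x u ∧ MG u < A)) ∧ (MG u < A → MG u % M < u ∧ GdM g H u) := by
  unfold chkP at h
  cases hb : Nat.ble M u with
  | true => exact absurd (le_of_ble hb) (by omega)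
  | false =>
    rw [hb] at h
    change chkN u = true at h
    unfold chkN at h
    obtain ⟨h0, h⟩ := band_eq_true.1 h
    obtain ⟨h1, h⟩ := band_eq_true.1 h
    obtain ⟨h2, h⟩ := band_eq_true.1 h
    obtain ⟨h3, h⟩ := band_eq_true.1 h
    obtain ⟨h4, h⟩ := band_eq_true.1 h
    obtain ⟨h5, h⟩ := band_eq_true.1 h
    obtain ⟨h6, h⟩ := band_eq_true.1 h
    obtain ⟨h7, h⟩ := band_eq_true.1 h
    refine ⟨?_, sndM hy u h⟩
    intro x
    cases x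
    · exact snc_p hy _ u hu h0
    · exact snc_pi hy _ u hu h1
    · exact snc_q hy _ u hu h2
    · exact snc_qi hy _ u hu h3
    · exact snc_z hy _ u hu h4
    · exact snc_zi hy _ u hu h5
    · exact snc_y hy _ u hu h6
    · exact snc_yi hy _ u hu h7
theorem final (hinv : ∀ x, g (inv x) = (g x)⁻¹) (hr : ∀ r ∈ rels, (r.map g).prod = 1) (hH : ∀ r ∈ subs, (r.map g).prod ∈ H)
    (hall : ∀ u, u < M → chkP u = true) (hc : cntB liveP 10 0 = 192) :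
    H.relIndex (Subgroup.closure (Set.range g)) ≤ 192 ∧ H.relIndex (Subgroup.closure (Set.range g)) ≠ 0 := by
  have hn := fun u hu => sndN ⟨hinv, hr, hH⟩ u hu (hall u hu)
  have h1 : ∀ x u, u < M → T x u < A → Good (fa g) T MG M (cP g H) x u := by
    intro x u hu hx
    rcases (hn u hu).1 x with h | h
    · exact h.2
    · exact absurd h.1 (by omega)
  have h2 : ∀ u, u < M → MG u < A → GoodM (fa g) T MG M (cP g H) u := fun u hu h => ((hn u hu).2 h).2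
  refine relIndex_le (M := M) (A := A) (T := T) (MG := MG) (c := cP g H) (by decide) cc_zero (sound_of_good h1 h2) ?_ ?_ ?_
  · intro u hu h
    exact ((hn u hu).2 h).1
  · intro x u hu h
    rcases (hn u hu).1 x with h' | h'
    · exact h'.1
    · exact absurd h'.2 (by omega)
  · rw [← hc, ← cntB_spec]
    apply Finset.card_le_card
    intro u
    simp only [Finset.mem_filter, Finset.mem_Ico]
    rintro ⟨⟨_, h3⟩, h4⟩
    refine ⟨⟨Nat.zero_le _, lt_of_lt_of_le h3 (by decide)⟩, ?_⟩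
    unfold liveP
    cases hb : Nat.ble M u with
    | true => exact absurd (le_of_ble hb) (by omega)
    | false => exact h4
end
end H64.TCMCD
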